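import Mathlib

set_option autoImplicit false
set_option linter.unusedSectionVars false

/-!
# Density for several simple modules, and commutator spaces (helper53)
Tools for Brauer's theorem on the number of simple modules.
-/

namespace Cfsg.Agent.H53.BC

universe u v w x

/-! ### commutator space -/

section comm

variable (k : Type u) [Field k]

/-- the span of the commutators `x y - y x`. -/
def comm (A : Type v) [Ring A] [Algebra k A] : Submodule k A :=
  Submodule.span k (Set.range fun q : A × A => q.1 * q.2 - q.2 * q.1)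

variable {k} {A : Type v} [Ring A] [Algebra k A] {B : Type w} [Ring B] [Algebra k B]

theorem sub_mem_comm (a b : A) : a * b - b * a ∈ comm k A := Submodule.subset_span ⟨(a, b), rfl⟩

theorem map_comm (f : A →ₐ[k] B) (hf : Function.Surjective f) : (comm k A).map f.toLinearMap = comm k B := by
  unfold comm
  rw [Submodule.map_span]
  congr 1
  ext y
  constructor
  · rintro ⟨_, ⟨⟨a, b⟩, rfl⟩, rfl⟩
    exact ⟨(f a, f b), by simp⟩
  · rintro ⟨⟨a, b⟩, rfl⟩
    obtain ⟨a, rfl⟩ := hf a
    obtain ⟨b, rfl⟩ := hf b
    exact ⟨a * b - b * a, ⟨(a, b), rfl⟩, by simp⟩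

theorem mem_comm_equiv (f : A ≃ₐ[k] B) {a : A} (h : f a ∈ comm k B) : a ∈ comm k A := by
  rw [← map_comm f.symm.toAlgHom f.symm.surjective]
  exact ⟨f a, h, by simp⟩

open Matrix in
theorem matrix_mem_comm {n : Type x} [Fintype n] [DecidableEq n] {M : Matrix n n k} (h : M.trace = 0) :
    M ∈ comm k (Matrix n n k) := by
  rcases isEmpty_or_nonempty n with hn | ⟨⟨i0⟩⟩
  · have : M = 0 := by ext i; exact hn.elim i
    rw [this]; exact zero_mem _
  have h1 : ∀ i j c, i ≠ j → Matrix.single i j c ∈ comm k (Matrix n n k) := by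
    intro i j c hij
    have := sub_mem_comm (k := k) (Matrix.single i i (1 : k)) (Matrix.single i j c)
    rwa [single_mul_single_same, single_mul_single_of_ne _ _ _ _ hij.symm, sub_zero, one_mul] at this
  have h2 : ∀ i c, Matrix.single i i c - Matrix.single i0 i0 c ∈ comm k (Matrix n n k) := by
    intro i c
    have := sub_mem_comm (k := k) (Matrix.single i i0 (1 : k)) (Matrix.single i0 i c)
    rwa [single_mul_single_same, single_mul_single_same, one_mul, mul_one] at this
  rw [matrix_eq_sum_single M]
  have h3 : ∑ i : n, ∑ j : n, Matrix.single i j (M i j) =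
      ∑ i : n, (∑ j ∈ Finset.univ.erase i, Matrix.single i j (M i j)) + ∑ i : n, (Matrix.single i i (M i i) -
        Matrix.single i0 i0 (M i i)) := by
    have e : ∑ i : n, (Matrix.single i0 i0 (M i i) : Matrix n n k) = 0 := by
      ext a b
      rw [Matrix.sum_apply, Matrix.zero_apply]
      by_cases hab : i0 = a ∧ i0 = b
      · obtain ⟨rfl, rfl⟩ := hab
        simp only [Matrix.single_apply_same]
        exact h
      · exact Finset.sum_eq_zero fun i _ => Matrix.single_apply_of_ne _ _ _ _ _ hab
    rw [Finset.sum_sub_distrib, e, sub_zero, ← Finset.sum_add_distrib]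
    refine Finset.sum_congr rfl fun i _ => ?_
    rw [add_comm]
    exact (Finset.add_sum_erase Finset.univ (fun j => Matrix.single i j (M i j)) (Finset.mem_univ i)).symm
  rw [h3]
  refine add_mem (sum_mem fun i _ => sum_mem fun j hj => h1 _ _ _ (Finset.ne_of_mem_erase hj).symm)
    (sum_mem fun i _ => h2 _ _)

theorem end_mem_comm {W : Type x} [AddCommGroup W] [Module k W] [FiniteDimensional k W] {f : Module.End k W}
    (h : LinearMap.trace k W f = 0) : f ∈ comm k (Module.End k W) := by
  classical
  let b := Module.finBasis k W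
  apply mem_comm_equiv (LinearMap.toMatrixAlgEquiv b)
  apply matrix_mem_comm
  rw [← h, LinearMap.trace_eq_matrix_trace k b]
  rfl

theorem pi_mem_comm {ι : Type w} [Finite ι] {E : ι → Type x} [∀ i, Ring (E i)] [∀ i, Algebra k (E i)] {f : ∀ i, E i}
    (h : ∀ i, f i ∈ comm k (E i)) : f ∈ comm k (∀ i, E i) := by
  classical
  have := Fintype.ofFinite ι
  have key : ∀ i, ∀ x ∈ comm k (E i), Pi.single i x ∈ comm k (∀ i, E i) := by
    intro i x hx
    unfold comm at hx
    induction hx using Submodule.span_induction with
    | mem x hx =>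
      obtain ⟨⟨a, b⟩, rfl⟩ := hx
      have := sub_mem_comm (k := k) (Pi.single i a : ∀ i, E i) (Pi.single i b)
      rw [← Pi.single_mul, ← Pi.single_mul, ← Pi.single_sub] at this
      exact this
    | zero => rw [Pi.single_zero]; exact zero_mem _
    | add x y _ _ h1 h2 => rw [Pi.single_add]; exact add_mem h1 h2
    | smul c x _ h1 => rw [Pi.single_smul]; exact Submodule.smul_mem _ _ h1
  have e : f = ∑ i, Pi.single i (f i) := (Finset.univ_sum_single f).symm
  rw [e]
  exact sum_mem fun i _ => key i _ (h i)

end comm

/-! ### density -/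

section density

variable {k : Type u} [Field k] [IsAlgClosed k] {A : Type v} [Ring A] [Algebra k A]
variable {ι : Type w} [Finite ι] (V : ι → Type x) [∀ i, AddCommGroup (V i)] [∀ i, Module k (V i)]
  [∀ i, Module A (V i)] [∀ i, IsScalarTower k A (V i)] [∀ i, IsSimpleModule A (V i)] [∀ i, FiniteDimensional k (V i)]

theorem end_pi (hne : ∀ i j, i ≠ j → IsEmpty (V i ≃ₗ[A] V j)) (φ : Module.End A (∀ i, V i)) :
    ∃ c : ι → k, ∀ (m : ∀ i, V i) (i : ι), φ m i = c i • m i := by
  classical
  have := Fintype.ofFinite ι
  have h1 : ∀ i, ∃ c : k, ∀ v : V i, φ (Pi.single i v) i = c • v := by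
    intro i
    let g : Module.End A (V i) := (LinearMap.proj i).comp (φ.comp (LinearMap.single A V i))
    obtain ⟨c, hc⟩ := (IsSimpleModule.algebraMap_end_bijective_of_isAlgClosed (A := A) (V := V i) k).2 g
    refine ⟨c, fun v => ?_⟩
    have := congrArg (fun h : Module.End A (V i) => h v) hc
    simpa [g, Module.algebraMap_end_apply] using this.symm
  have h2 : ∀ i j, i ≠ j → ∀ v : V j, φ (Pi.single j v) i = 0 := by
    intro i j hij v
    let g : V j →ₗ[A] V i := (LinearMap.proj i).comp (φ.comp (LinearMap.single A V j))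
    rcases g.bijective_or_eq_zero with h | h
    · exact ((hne j i hij.symm).false (LinearEquiv.ofBijective g h)).elim
    · have := congrArg (fun h : V j →ₗ[A] V i => h v) h
      simpa [g] using this
  choose c hc using h1
  refine ⟨c, fun m i => ?_⟩
  have e : m = ∑ j, Pi.single j (m j) := (Finset.univ_sum_single m).symm
  conv_lhs => rw [e]
  rw [map_sum, Finset.sum_apply, Finset.sum_eq_single i]
  · exact hc i _
  · intro j _ hj
    exact h2 i j hj.symm _
  · intro h; exact absurd (Finset.mem_univ i) h

/-- simultaneous density -/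
theorem exists_smul_eq (hne : ∀ i j, i ≠ j → IsEmpty (V i ≃ₗ[A] V j)) (f : ∀ i, Module.End k (V i)) :
    ∃ a : A, ∀ (i : ι) (v : V i), a • v = f i v := by
  classical
  have := Fintype.ofFinite ι
  let f' : Module.End (Module.End A (∀ i, V i)) (∀ i, V i) :=
    { toFun := fun m i => f i (m i)
      map_add' := fun m m' => by funext i; simp
      map_smul' := fun φ m => by
        obtain ⟨c, hc⟩ := end_pi (k := k) V hne φ
        funext i
        simp only [Module.End.smul_def, RingHom.id_apply]
        rw [hc, hc, map_smul] }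
  obtain ⟨s, hs⟩ : (⊤ : Submodule k (∀ i, V i)).FG := Module.Finite.fg_top
  obtain ⟨a, ha⟩ := jacobson_density f' s
  have key : ∀ m : ∀ i, V i, f' m = a • m := by
    intro m
    have hm : m ∈ Submodule.span k (s : Set (∀ i, V i)) := by rw [hs]; trivial
    induction hm using Submodule.span_induction with
    | mem x hx => exact ha x hx
    | zero => rw [map_zero, smul_zero]
    | add x y _ _ h1 h2 => rw [map_add, smul_add, h1, h2]
    | smul c x _ h1 =>
      have e1 : f' (c • x) = c • f' x := by
        funext i
        change f i (c • x i) = c • f i (x i)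
        rw [map_smul]
      rw [e1, h1]
      funext i
      change c • a • x i = a • c • x i
      rw [smul_comm]
  refine ⟨a, fun i v => ?_⟩
  have := congrFun (key (Pi.single i v)) i
  change f i ((Pi.single i v : ∀ i, V i) i) = a • (Pi.single i v : ∀ i, V i) i at this
  rw [Pi.single_eq_same] at this
  exact this.symm

/-- the map from `A` to the product of the endomorphism algebras. -/
noncomputable def toPi : A →ₐ[k] (∀ i, Module.End k (V i)) :=
  AlgHom.pi fun i => Algebra.lsmul k k (V i)

@[simp] theorem toPi_apply (a : A) (i : ι) (v : V i) : toPi (k := k) V a i v = a • v := rfl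

theorem toPi_surjective (hne : ∀ i j, i ≠ j → IsEmpty (V i ≃ₗ[A] V j)) : Function.Surjective (toPi (k := k) (A := A) V) := by
  intro f
  obtain ⟨a, ha⟩ := exists_smul_eq (k := k) V hne f
  refine ⟨a, ?_⟩
  funext i
  ext v
  exact ha i v

/-- an element with trace zero on all `V i` acts as a combination of commutators. -/
theorem exists_comm (hne : ∀ i j, i ≠ j → IsEmpty (V i ≃ₗ[A] V j)) {a : A}
    (ha : ∀ i, LinearMap.trace k (V i) (toPi (k := k) V a i) = 0) :
    ∃ b ∈ comm k A, ∀ (i : ι) (v : V i), (a - b) • v = 0 := by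
  have h1 : toPi (k := k) V a ∈ comm k (∀ i, Module.End k (V i)) := pi_mem_comm fun i => end_mem_comm (ha i)
  rw [← map_comm (toPi (k := k) V) (toPi_surjective V hne)] at h1
  obtain ⟨b, hb, hba⟩ := h1
  refine ⟨b, hb, fun i v => ?_⟩
  have := congrArg (fun g : ∀ i, Module.End k (V i) => g i v) hba
  change b • v = a • v at this
  rw [sub_smul, this, sub_self]

end density

end Cfsg.Agent.H53.BC
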