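import Mathlib
import Cfsg.Agent.H53.BrauerDens

set_option autoImplicit false
set_option linter.unusedSectionVars false

/-!
# Brauer: the number of simple modules is the number of `p`-regular classes (helper53)
-/

namespace Cfsg.Agent.H53.BC

universe u v w x

section sums

/-- a function invariant under a `p`-group has the same sum over the fixed points, in characteristic `p`. -/
theorem sum_eq_sum_fixed {k : Type u} [CommRing k] (p : ℕ) [Fact p.Prime] [CharP k p] {P : Type v} [Group P] {α : Type w}
    [MulAction P α] [Fintype α] [DecidablePred fun a : α => a ∈ MulAction.fixedPoints P α] (hP : IsPGroup p P) (F : α → k)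
    (hF : ∀ (g : P) (a : α), F (g • a) = F a) : ∑ a, F a = ∑ a with a ∈ MulAction.fixedPoints P α, F a := by
  classical
  have key : ∀ c : k, ((Finset.univ.filter fun a => F a = c).card : k) =
      (((Finset.univ.filter fun a => a ∈ MulAction.fixedPoints P α).filter fun a => F a = c).card : k) := by
    intro c
    let act : MulAction P {a : α // F a = c} :=
      { smul := fun g a => ⟨g • (a : α), by rw [hF]; exact a.2⟩
        one_smul := fun a => Subtype.ext (one_smul P (a : α))
        mul_smul := fun g h a => Subtype.ext (mul_smul g h (a : α)) }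
    have h1 := hP.card_modEq_card_fixedPoints {a : α // F a = c}
    have h2 : (Nat.card {a : α // F a = c} : k) = (Nat.card (MulAction.fixedPoints P {a : α // F a = c}) : k) :=
      (CharP.natCast_eq_natCast k p).mpr h1
    have e1 : Nat.card {a : α // F a = c} = (Finset.univ.filter fun a => F a = c).card := by
      rw [Nat.card_eq_fintype_card, Fintype.card_subtype]
    have e2 : Nat.card (MulAction.fixedPoints P {a : α // F a = c}) =
        ((Finset.univ.filter fun a => a ∈ MulAction.fixedPoints P α).filter fun a => F a = c).card := by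
      rw [← Fintype.card_coe, ← Nat.card_eq_fintype_card]
      refine Nat.card_congr ⟨fun a => ⟨a.1.1, ?_⟩, fun a => ⟨⟨a.1, ?_⟩, ?_⟩, fun _ => rfl, fun _ => rfl⟩
      · rw [Finset.mem_filter, Finset.mem_filter]
        exact ⟨⟨Finset.mem_univ _, fun g => congrArg Subtype.val (a.2 g)⟩, a.1.2⟩
      · exact (Finset.mem_filter.mp a.2).2
      · intro g
        exact Subtype.ext ((Finset.mem_filter.mp (Finset.mem_filter.mp a.2).1).2 g)
    rw [← e1, ← e2]
    exact h2
  have hs : ∀ s : Finset α, ∑ a ∈ s, F a = ∑ c ∈ Finset.univ.image F, ((s.filter fun a => F a = c).card : k) * c := by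
    intro s
    rw [← Finset.sum_fiberwise_of_maps_to (s := s) (t := Finset.univ.image F) (g := F)
      (fun a _ => Finset.mem_image_of_mem F (Finset.mem_univ a))]
    refine Finset.sum_congr rfl fun c _ => ?_
    rw [Finset.sum_congr rfl (g := fun _ => c) (fun a ha => (Finset.mem_filter.mp ha).2), Finset.sum_const, nsmul_eq_mul]
  rw [hs, hs]
  exact Finset.sum_congr rfl fun c _ => by rw [key c]

/-- cyclic rotation of `q`-tuples: only the constant tuples contribute. -/
theorem sum_tuples {k : Type u} [CommRing k] (p : ℕ) [Fact p.Prime] [CharP k p] {α : Type w} [Fintype α] {n : ℕ}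
    (F : (Fin (p ^ n) → α) → k) (hF : ∀ f, F (f ∘ finRotate (p ^ n)) = F f) : ∑ f, F f = ∑ a, F (fun _ => a) := by
  classical
  have hp : p.Prime := Fact.out
  rcases Nat.eq_zero_or_pos n with rfl | hn
  · have : Fintype.card (Fin (p ^ 0)) = 1 := by simp
    have : Unique (Fin (p ^ 0)) := by
      rw [pow_zero]; infer_instance
    exact Fintype.sum_equiv (Equiv.funUnique (Fin (p ^ 0)) α) _ _ fun f => by
      congr 1
      funext i
      rw [Unique.eq_default i]
      rfl
  have h2 : 2 ≤ p ^ n := by
    calc 2 ≤ p := hp.two_le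
      _ = p ^ 1 := (pow_one p).symm
      _ ≤ p ^ n := Nat.pow_le_pow_right hp.pos hn
  set r := finRotate (p ^ n) with hr
  have hcyc : r.IsCycle := isCycle_finRotate_of_le h2
  have hsup : r.support = Finset.univ := support_finRotate_of_le h2
  have hord : orderOf r = p ^ n := by
    rw [hcyc.orderOf, hsup, Finset.card_univ, Fintype.card_fin]
  let P : Subgroup (Equiv.Perm (Fin (p ^ n))) := Subgroup.zpowers r
  have hP : IsPGroup p P := by
    apply IsPGroup.of_card (n := n)
    rw [Nat.card_zpowers, hord]
  let act : MulAction P (Fin (p ^ n) → α) := arrowAction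
  have hinv : ∀ (g : P) (f : Fin (p ^ n) → α), F (g • f) = F f := by
    rintro ⟨g, hg⟩ f
    have key : ∀ g ∈ Subgroup.zpowers r, ∀ f, F (f ∘ (g⁻¹ : Equiv.Perm _)) = F f := by
      intro g hg
      rw [Subgroup.mem_zpowers_iff] at hg
      obtain ⟨m, rfl⟩ := hg
      have h1 : ∀ m : ℕ, ∀ f, F (f ∘ (r ^ m : Equiv.Perm _)) = F f := by
        intro m
        induction m with
        | zero => intro f; rfl
        | succ m ih =>
          intro f
          have : f ∘ ⇑(r ^ (m + 1)) = (f ∘ ⇑(r ^ m)) ∘ r := by
            rw [pow_succ]; rfl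
          rw [this, hF, ih]
      have h3 : ∀ m : ℕ, ∀ f, F (f ∘ ((r ^ m)⁻¹ : Equiv.Perm _)) = F f := by
        intro m f
        have := h1 m (f ∘ ((r ^ m)⁻¹ : Equiv.Perm _))
        rw [← this]
        congr 1
        funext i
        simp
      intro f
      rcases Int.le_total 0 m with h | h
      · obtain ⟨a, rfl⟩ := Int.eq_ofNat_of_zero_le h
        exact h3 a f
      · obtain ⟨a, ha⟩ := Int.eq_ofNat_of_zero_le (neg_nonneg.mpr h)
        have : (r ^ m)⁻¹ = r ^ a := by
          rw [← zpow_neg, ha]; exact zpow_natCast r a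
        rw [this]
        exact h1 a f
    exact key g hg f
  rw [sum_eq_sum_fixed p hP F hinv]
  have hfix : ∀ f : Fin (p ^ n) → α, f ∈ MulAction.fixedPoints P (Fin (p ^ n) → α) ↔
      ∃ a : α, f = fun _ => a := by
    intro f
    constructor
    · intro hf
      have : NeZero (p ^ n) := ⟨by positivity⟩
      refine ⟨f 0, funext fun i => ?_⟩
      obtain ⟨m, hm⟩ : ∃ m : ℤ, (r ^ m) i = 0 :=
        hcyc.exists_zpow_eq (Equiv.Perm.mem_support.mp (by rw [hsup]; exact Finset.mem_univ _))
          (Equiv.Perm.mem_support.mp (by rw [hsup]; exact Finset.mem_univ _))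
      have h1 := congrFun (hf ⟨r ^ (m : ℤ), Subgroup.zpow_mem_zpowers r m⟩) 0
      have h3 : (r ^ m)⁻¹ 0 = i := by rw [← hm]; simp
      change f ((r ^ m)⁻¹ 0) = f 0 at h1
      rw [h3] at h1
      exact h1
    · rintro ⟨a, rfl⟩ g
      rfl
  symm
  refine Finset.sum_bij (fun a _ => fun _ => a) ?_ ?_ ?_ ?_
  · intro a _
    rw [Finset.mem_filter]
    exact ⟨Finset.mem_univ _, (hfix _).mpr ⟨a, rfl⟩⟩
  · intro a _ b _ h
    have : NeZero (p ^ n) := ⟨by positivity⟩
    exact congrFun h 0
  · intro f hf
    obtain ⟨a, rfl⟩ := (hfix f).mp (Finset.mem_filter.mp hf).2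
    exact ⟨a, Finset.mem_univ _, rfl⟩
  · intro a _; rfl

end sums

section alg

variable {k : Type u} [Field k] {G : Type v} [Group G] [Fintype G]

theorem pow_expand (x : MonoidAlgebra k G) (m : ℕ) :
    x ^ m = ∑ f : Fin m → G, (∏ i, x.coeff (f i)) • (MonoidAlgebra.single (List.ofFn f).prod (1 : k) : MonoidAlgebra k G) := by
  classical
  have hx : x = ∑ g : G, x.coeff g • (MonoidAlgebra.single g (1 : k) : MonoidAlgebra k G) := by
    have h1 : x = ∑ g : G, (MonoidAlgebra.single g (x.coeff g) : MonoidAlgebra k G) := by
      apply MonoidAlgebra.coeff_injective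
      rw [MonoidAlgebra.coeff_sum]
      ext a
      rw [Finsupp.finsetSum_apply, Finset.sum_eq_single a]
      · exact (Finsupp.single_eq_same).symm
      · intro b _ hb
        exact Finsupp.single_eq_of_ne (fun h => hb h.symm)
      · intro h; exact absurd (Finset.mem_univ a) h
    conv_lhs => rw [h1]
    refine Finset.sum_congr rfl fun g _ => ?_
    rw [MonoidAlgebra.smul_single', mul_one]
  induction m with
  | zero =>
    rw [pow_zero, Fintype.sum_unique]
    simp [MonoidAlgebra.one_def]
  | succ m ih =>
    rw [pow_succ', ih]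
    nth_rewrite 1 [hx]
    rw [Finset.sum_mul]
    simp_rw [Finset.mul_sum]
    rw [← Fintype.sum_prod_type']
    refine Fintype.sum_equiv (Fin.consEquiv fun _ => G) _ _ ?_
    rintro ⟨g, f⟩
    have e : (Fin.consEquiv fun _ => G) (g, f) = Fin.cons g f := rfl
    rw [e, Fin.prod_univ_succ, List.ofFn_succ, List.prod_cons]
    simp only [Fin.cons_zero, Fin.cons_succ]
    rw [smul_mul_smul_comm, MonoidAlgebra.single_mul_single, mul_one]

variable (p : ℕ) [Fact p.Prime] [CharP k p]

theorem class_pow (τ : MonoidAlgebra k G →ₗ[k] k) (hτ : ∀ a b, τ (a * b) = τ (b * a)) (x : MonoidAlgebra k G) (n : ℕ) :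
    τ (x ^ p ^ n) = ∑ g : G, x.coeff g ^ p ^ n * τ (MonoidAlgebra.single (g ^ p ^ n) 1) := by
  classical
  rw [pow_expand, map_sum]
  simp_rw [map_smul, smul_eq_mul]
  rw [sum_tuples p (n := n) (fun f : Fin (p ^ n) → G => (∏ i, x.coeff (f i)) *
    τ (MonoidAlgebra.single (List.ofFn f).prod 1))]
  · refine Finset.sum_congr rfl fun g _ => ?_
    rw [Finset.prod_const, Finset.card_univ, Fintype.card_fin, List.ofFn_const, List.prod_replicate]
  · intro f
    have h1 : ∏ i, x.coeff ((f ∘ finRotate (p ^ n)) i) = ∏ i, x.coeff (f i) :=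
      Equiv.prod_comp (finRotate (p ^ n)) (fun i => x.coeff (f i))
    rw [h1]
    congr 1
    have hpos : 0 < p ^ n := pow_pos (Fact.out : p.Prime).pos n
    obtain ⟨m, hm⟩ : ∃ m, p ^ n = m + 1 := ⟨p ^ n - 1, by omega⟩
    revert f
    rw [hm]
    intro f _
    rw [List.ofFn_succ', List.ofFn_succ, List.concat_eq_append, List.prod_append, List.prod_singleton, List.prod_cons]
    have e1 : (List.ofFn fun i : Fin m => (f ∘ finRotate (m + 1)) i.castSucc) = List.ofFn fun i : Fin m => f i.succ := by
      congr 1
      funext i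
      simp only [Function.comp_apply]
      congr 1
      rw [finRotate_apply]
      exact Fin.coeSucc_eq_succ
    have e2 : (f ∘ finRotate (m + 1)) (Fin.last m) = f 0 := by
      simp
    rw [e1, e2]
    have := hτ (MonoidAlgebra.single (List.ofFn fun i : Fin m => f i.succ).prod (1 : k)) (MonoidAlgebra.single (f 0) 1)
    rwa [MonoidAlgebra.single_mul_single, MonoidAlgebra.single_mul_single, mul_one] at this

/-- the sum of the coefficients over a conjugacy class. -/
noncomputable def clsum (k : Type u) [Field k] {G : Type v} [Group G] [Fintype G] [DecidableEq (ConjClasses G)]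
    (C : ConjClasses G) : MonoidAlgebra k G →ₗ[k] k where
  toFun x := ∑ g with ConjClasses.mk g = C, x.coeff g
  map_add' x y := by rw [← Finset.sum_add_distrib]; rfl
  map_smul' c x := by rw [RingHom.id_apply, smul_eq_mul, Finset.mul_sum]; rfl

theorem clsum_single [DecidableEq (ConjClasses G)] (C : ConjClasses G) (g : G) (c : k) :
    clsum k C (MonoidAlgebra.single g c) = if ConjClasses.mk g = C then c else 0 := by
  classical
  change ∑ x with ConjClasses.mk x = C, (MonoidAlgebra.single g c : MonoidAlgebra k G).coeff x = _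
  simp only [MonoidAlgebra.coeff_single, Finsupp.single_apply]
  rw [Finset.sum_ite_eq]
  simp

omit [Fintype G] in
theorem eq_sum_single [Fintype G] (x : MonoidAlgebra k G) :
    x = ∑ g : G, (MonoidAlgebra.single g (x.coeff g) : MonoidAlgebra k G) := by
  classical
  apply MonoidAlgebra.coeff_injective
  rw [MonoidAlgebra.coeff_sum]
  ext a
  rw [Finsupp.finsetSum_apply, Finset.sum_eq_single a]
  · exact (Finsupp.single_eq_same).symm
  · intro b _ hb
    exact Finsupp.single_eq_of_ne (fun h => hb h.symm)
  · intro h; exact absurd (Finset.mem_univ a) h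

theorem clsum_mul_comm [DecidableEq (ConjClasses G)] (C : ConjClasses G) (a b : MonoidAlgebra k G) :
    clsum k C (a * b) = clsum k C (b * a) := by
  rw [eq_sum_single a, eq_sum_single b, Finset.sum_mul_sum, Finset.sum_mul_sum, map_sum, map_sum]
  simp_rw [map_sum]
  rw [Finset.sum_comm]
  refine Finset.sum_congr rfl fun g _ => Finset.sum_congr rfl fun h _ => ?_
  rw [MonoidAlgebra.single_mul_single, MonoidAlgebra.single_mul_single, clsum_single, clsum_single, mul_comm]
  have : ConjClasses.mk (h * g) = ConjClasses.mk (g * h) := by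
    rw [ConjClasses.mk_eq_mk_iff_isConj, isConj_iff]
    exact ⟨g, by group⟩
  rw [this]

/-- the Frobenius twisted functional. -/
noncomputable def twist (τ : MonoidAlgebra k G →ₗ[k] k) (n : ℕ) : MonoidAlgebra k G →+ k where
  toFun x := ∑ g : G, x.coeff g ^ p ^ n * τ (MonoidAlgebra.single (g ^ p ^ n) 1)
  map_zero' := by
    refine Finset.sum_eq_zero fun g _ => ?_
    have h0 : (0 : MonoidAlgebra k G).coeff g = 0 := rfl
    rw [h0, zero_pow (pow_ne_zero n (Fact.out : p.Prime).ne_zero), zero_mul]
  map_add' x y := by
    rw [← Finset.sum_add_distrib]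
    refine Finset.sum_congr rfl fun g _ => ?_
    have h0 : (x + y).coeff g = x.coeff g + y.coeff g := rfl
    rw [h0, add_pow_char_pow, add_mul]

theorem twist_single (τ : MonoidAlgebra k G →ₗ[k] k) (n : ℕ) (g : G) (c : k) :
    twist p τ n (MonoidAlgebra.single g c) = c ^ p ^ n * τ (MonoidAlgebra.single (g ^ p ^ n) 1) := by
  classical
  change ∑ x : G, (MonoidAlgebra.single g c : MonoidAlgebra k G).coeff x ^ p ^ n * τ (MonoidAlgebra.single (x ^ p ^ n) 1) = _
  rw [Finset.sum_eq_single g]
  · rw [MonoidAlgebra.coeff_single, Finsupp.single_eq_same]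
  · intro b _ hb
    rw [MonoidAlgebra.coeff_single, Finsupp.single_eq_of_ne hb, zero_pow (pow_ne_zero n (Fact.out : p.Prime).ne_zero), zero_mul]
  · intro h; exact absurd (Finset.mem_univ g) h

theorem twist_smul (τ : MonoidAlgebra k G →ₗ[k] k) (n : ℕ) (c : k) (x : MonoidAlgebra k G) :
    twist p τ n (c • x) = c ^ p ^ n * twist p τ n x := by
  change ∑ g : G, (c • x).coeff g ^ p ^ n * τ (MonoidAlgebra.single (g ^ p ^ n) 1) =
    c ^ p ^ n * ∑ g : G, x.coeff g ^ p ^ n * τ (MonoidAlgebra.single (g ^ p ^ n) 1)
  rw [Finset.mul_sum]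
  refine Finset.sum_congr rfl fun g _ => ?_
  have h0 : (c • x).coeff g = c * x.coeff g := rfl
  rw [h0, mul_pow, mul_assoc]

theorem twist_mul_comm (τ : MonoidAlgebra k G →ₗ[k] k) (hτ : ∀ a b, τ (a * b) = τ (b * a)) (n : ℕ)
    (a b : MonoidAlgebra k G) : twist p τ n (a * b) = twist p τ n (b * a) := by
  rw [eq_sum_single a, eq_sum_single b, Finset.sum_mul_sum, Finset.sum_mul_sum, map_sum, map_sum]
  simp_rw [map_sum]
  rw [Finset.sum_comm]
  refine Finset.sum_congr rfl fun g _ => Finset.sum_congr rfl fun h _ => ?_
  rw [MonoidAlgebra.single_mul_single, MonoidAlgebra.single_mul_single, twist_single, twist_single,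
    mul_comm (a.coeff h)]
  congr 1
  -- `(h g)^q` and `(g h)^q` are conjugate
  have e : (h * g) ^ p ^ n = g⁻¹ * ((g * h) ^ p ^ n * g) := by
    have h1 : h * g = g⁻¹ * (g * h) * g⁻¹⁻¹ := by group
    rw [h1, conj_pow]; group
  have e2 : (MonoidAlgebra.single ((h * g) ^ p ^ n) 1 : MonoidAlgebra k G) =
      MonoidAlgebra.single g⁻¹ 1 * (MonoidAlgebra.single ((g * h) ^ p ^ n) 1 * MonoidAlgebra.single g 1) := by
    rw [MonoidAlgebra.single_mul_single, MonoidAlgebra.single_mul_single, mul_one, mul_one, ← e]
  rw [e2, hτ, mul_assoc, MonoidAlgebra.single_mul_single, mul_inv_cancel, mul_one, ← MonoidAlgebra.one_def, mul_one]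

theorem twist_comm (τ : MonoidAlgebra k G →ₗ[k] k) (hτ : ∀ a b, τ (a * b) = τ (b * a)) (n : ℕ)
    {b : MonoidAlgebra k G} (hb : b ∈ comm k (MonoidAlgebra k G)) : twist p τ n b = 0 := by
  unfold comm at hb
  induction hb using Submodule.span_induction with
  | mem x hx =>
    obtain ⟨⟨a, b⟩, rfl⟩ := hx
    simp only
    rw [map_sub, twist_mul_comm p τ hτ, sub_self]
  | zero => exact map_zero _
  | add x y _ _ h1 h2 => rw [map_add, h1, h2, add_zero]
  | smul c x _ h1 => rw [twist_smul, h1, mul_zero]

/-- an element congruent to a commutator modulo a nilpotent element. -/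
theorem twist_eq_zero (τ : MonoidAlgebra k G →ₗ[k] k) (hτ : ∀ a b, τ (a * b) = τ (b * a)) (n : ℕ)
    {a b : MonoidAlgebra k G} (hb : b ∈ comm k (MonoidAlgebra k G)) (h : (a - b) ^ p ^ n = 0) : twist p τ n a = 0 := by
  have h1 := class_pow p τ hτ (a - b) n
  rw [h, map_zero] at h1
  have h2 : twist p τ n (a - b) = 0 := h1.symm
  rw [map_sub, twist_comm p τ hτ n hb, sub_zero] at h2
  exact h2

end alg

section main

open MonoidAlgebra

variable {k : Type u} [Field k] [IsAlgClosed k] (p : ℕ) [hp : Fact p.Prime] [CharP k p] {G : Type v} [Group G] [Fintype G]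
  {ι : Type w} [Fintype ι] (V : ι → Type x) [∀ i, AddCommGroup (V i)] [∀ i, Module k (V i)]
  [∀ i, Module (MonoidAlgebra k G) (V i)] [∀ i, IsScalarTower k (MonoidAlgebra k G) (V i)]
  [∀ i, IsSimpleModule (MonoidAlgebra k G) (V i)] [∀ i, FiniteDimensional k (V i)]

/-- the trace on `V i`. -/
noncomputable def tr (i : ι) : MonoidAlgebra k G →ₗ[k] k :=
  (LinearMap.trace k (V i)) ∘ₗ (Algebra.lsmul k k (V i) : MonoidAlgebra k G →ₐ[k] _).toLinearMap

theorem tr_mul_comm (i : ι) (a b : MonoidAlgebra k G) : tr V i (a * b) = tr V i (b * a) := by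
  unfold tr
  simp only [LinearMap.comp_apply, AlgHom.toLinearMap_apply, map_mul]
  exact LinearMap.trace_mul_comm k _ _

theorem tr_nilpotent (i : ι) {a : MonoidAlgebra k G} (h : IsNilpotent a) : tr V i a = 0 := by
  have h1 : IsNilpotent ((Algebra.lsmul k k (V i) : MonoidAlgebra k G →ₐ[k] _) a) := h.map _
  exact (LinearMap.isNilpotent_trace_of_isNilpotent h1).eq_zero

/-- exponents `q = p ^ n` with `g ^ q` the `p`-regular part. -/
theorem exists_exp (p : ℕ) [hp : Fact p.Prime] (G : Type v) [Group G] [Finite G] (N : ℕ) :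
    ∃ n : ℕ, N ≤ p ^ n ∧ (∀ g : G, (orderOf g).Coprime p → g ^ p ^ n = g) ∧ (∀ g : G, (orderOf (g ^ p ^ n)).Coprime p) := by
  obtain ⟨a, m, hm, hN⟩ := Nat.exists_eq_pow_mul_and_not_dvd (n := Nat.card G) Nat.card_pos.ne' p hp.out.ne_one
  have hcop : p.Coprime m := (Nat.Prime.coprime_iff_not_dvd hp.out).mpr hm
  have hm0 : 0 < m := Nat.pos_of_ne_zero (by rintro rfl; exact hm (dvd_zero _))
  have hφ : 0 < Nat.totient m := Nat.totient_pos.mpr hm0
  refine ⟨Nat.totient m * (a + N + 1), ?_, ?_, ?_⟩
  · calc N ≤ Nat.totient m * (a + N + 1) := by nlinarith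
      _ ≤ p ^ (Nat.totient m * (a + N + 1)) := (Nat.lt_pow_self hp.out.one_lt).le
  · intro g hg
    have h1 : orderOf g ∣ m := by
      have h2 : orderOf g ∣ p ^ a * m := by rw [← hN]; exact orderOf_dvd_natCard g
      exact (Nat.Coprime.pow_right a hg).dvd_of_dvd_mul_left h2
    have h3 : p ^ (Nat.totient m * (a + N + 1)) ≡ 1 [MOD m] := by
      rw [pow_mul]
      simpa using (Nat.ModEq.pow_totient hcop).pow (a + N + 1)
    have h4 := h3.of_dvd h1
    have h5 := pow_eq_pow_iff_modEq.mpr h4
    rw [h5, pow_one]
  · intro g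
    have h1 : (g ^ p ^ (Nat.totient m * (a + N + 1))) ^ m = 1 := by
      have h2 : Nat.card G ∣ p ^ (Nat.totient m * (a + N + 1)) * m := by
        rw [hN]
        apply Nat.mul_dvd_mul_right
        apply pow_dvd_pow
        nlinarith
      rw [← pow_mul]
      exact orderOf_dvd_iff_pow_eq_one.mp ((orderOf_dvd_natCard g).trans h2)
    exact Nat.Coprime.coprime_dvd_left (orderOf_dvd_of_pow_eq_one h1) hcop.symm

/-- **Brauer's theorem**: the number of simple modules is the number of `p`-regular conjugacy classes. -/
theorem card_regular_eq (hne : ∀ i j, i ≠ j → IsEmpty (V i ≃ₗ[MonoidAlgebra k G] V j))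
    (hall : ∀ m : Submodule (MonoidAlgebra k G) (MonoidAlgebra k G), IsCoatom m →
      ∃ i, Nonempty ((MonoidAlgebra k G ⧸ m) ≃ₗ[MonoidAlgebra k G] V i)) :
    Nat.card {c : ConjClasses G // ∃ g : G, ConjClasses.mk g = c ∧ (orderOf g).Coprime p} = Nat.card ι := by
  classical
  have := Fintype.ofFinite {c : ConjClasses G // ∃ g : G, ConjClasses.mk g = c ∧ (orderOf g).Coprime p}
  have hrep : ∀ c : {c : ConjClasses G // ∃ g : G, ConjClasses.mk g = c ∧ (orderOf g).Coprime p},
      ∃ g : G, ConjClasses.mk g = c.1 ∧ (orderOf g).Coprime p := fun c => c.2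
  choose rep hrep1 hrep2 using hrep
  apply le_antisymm
  · -- at most the number of simple modules
    let L : ({c : ConjClasses G // ∃ g : G, ConjClasses.mk g = c ∧ (orderOf g).Coprime p} → k) →ₗ[k] (ι → k) :=
      { toFun := fun c i => ∑ C, c C * tr V i (single (rep C) 1)
        map_add' := fun c c' => by
          funext i
          simp only [Pi.add_apply]
          rw [← Finset.sum_add_distrib]
          exact Finset.sum_congr rfl fun C _ => by ring
        map_smul' := fun r c => by
          funext i
          simp only [Pi.smul_apply, RingHom.id_apply, smul_eq_mul]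
          rw [Finset.mul_sum]
          exact Finset.sum_congr rfl fun C _ => by ring }
    have hL : Function.Injective L := by
      rw [← LinearMap.ker_eq_bot, LinearMap.ker_eq_bot']
      intro c hc
      set a : MonoidAlgebra k G := ∑ C, single (rep C) (c C) with ha
      have htr : ∀ i, LinearMap.trace k (V i) (toPi (k := k) V a i) = 0 := by
        intro i
        have h1 := congrFun hc i
        have h2 : tr V i a = 0 := by
          rw [ha, map_sum]
          refine Eq.trans (Finset.sum_congr rfl fun C _ => ?_) h1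
          have e : (single (rep C) (c C) : MonoidAlgebra k G) = c C • single (rep C) 1 := by
            rw [MonoidAlgebra.smul_single', mul_one]
          rw [e, map_smul, smul_eq_mul]
        exact h2
      obtain ⟨b, hb, hab⟩ := exists_comm (k := k) V hne htr
      have hJ : a - b ∈ Ring.jacobson (MonoidAlgebra k G) := by
        unfold Ring.jacobson Module.jacobson
        rw [Submodule.mem_sInf]
        intro m hm
        obtain ⟨i, ⟨e⟩⟩ := hall m hm
        have h1 : (a - b) • (Submodule.Quotient.mk (p := m) (1 : MonoidAlgebra k G)) = 0 := by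
          apply e.injective
          rw [map_smul, hab, map_zero]
        rw [← Submodule.Quotient.mk_smul, smul_eq_mul, mul_one, Submodule.Quotient.mk_eq_zero] at h1
        exact h1
      have : IsArtinianRing (MonoidAlgebra k G) := IsArtinianRing.of_finite k _
      obtain ⟨N, hN⟩ : IsNilpotent (Ring.jacobson (MonoidAlgebra k G)) := IsSemiprimaryRing.isNilpotent
      obtain ⟨n, hn1, hn2, hn3⟩ := exists_exp p G N
      have hz : (a - b) ^ p ^ n = 0 := by
        have h1 : (a - b) ^ N = 0 := by
          have h2 : (a - b) ^ N ∈ (Ring.jacobson (MonoidAlgebra k G)) ^ N := Ideal.pow_mem_pow hJ N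
          rw [hN] at h2
          exact (Submodule.mem_bot _).mp h2
        rw [← Nat.sub_add_cancel hn1, pow_add, h1, mul_zero]
      funext C0
      have h3 := twist_eq_zero p (clsum k C0.1) (clsum_mul_comm C0.1) n hb hz
      rw [ha, map_sum, Finset.sum_eq_single C0] at h3
      · rw [twist_single, hn2 _ (hrep2 C0), clsum_single, if_pos (hrep1 C0), mul_one] at h3
        exact pow_eq_zero_iff (pow_ne_zero n hp.out.ne_zero) |>.mp h3
      · intro C _ hC
        rw [twist_single, hn2 _ (hrep2 C), clsum_single, if_neg, mul_zero]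
        rw [hrep1]
        exact fun h => hC (Subtype.ext h)
      · intro h; exact absurd (Finset.mem_univ _) h
    have h1 := LinearMap.finrank_le_finrank_of_injective hL
    rw [Module.finrank_fintype_fun_eq_card, Module.finrank_fintype_fun_eq_card, ← Nat.card_eq_fintype_card,
      ← Nat.card_eq_fintype_card] at h1
    exact h1
  · -- at least the number of simple modules
    let L : (ι → k) →ₗ[k] ({c : ConjClasses G // ∃ g : G, ConjClasses.mk g = c ∧ (orderOf g).Coprime p} → k) :=
      { toFun := fun c C => ∑ i, c i * tr V i (single (rep C) (1 : k))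
        map_add' := fun c c' => by
          funext i
          simp only [Pi.add_apply]
          rw [← Finset.sum_add_distrib]
          exact Finset.sum_congr rfl fun C _ => by ring
        map_smul' := fun r c => by
          funext i
          simp only [Pi.smul_apply, RingHom.id_apply, smul_eq_mul]
          rw [Finset.mul_sum]
          exact Finset.sum_congr rfl fun C _ => by ring }
    have hL : Function.Injective L := by
      rw [← LinearMap.ker_eq_bot, LinearMap.ker_eq_bot']
      intro c hc
      -- the combination of the traces vanishes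
      let t : MonoidAlgebra k G →ₗ[k] k := ∑ i, c i • tr V i
      have ht : ∀ a, t a = ∑ i, c i * tr V i a := fun a => by simp [t]
      have ht0 : ∀ a, t a = 0 := by
        have hg : ∀ g : G, t (single g (1 : k)) = 0 := by
          intro g
          obtain ⟨n, hn1, hn2, hn3⟩ := exists_exp p G (Nat.card G)
          set s := g ^ p ^ n with hs
          have hnil : IsNilpotent ((single g 1 : MonoidAlgebra k G) - single s 1) := by
            refine ⟨p ^ n, ?_⟩
            have hcomm : Commute (single g 1 : MonoidAlgebra k G) (single s 1) := by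
              change _ * _ = _ * _
              rw [single_mul_single, single_mul_single, hs, ← pow_succ, ← pow_succ']
            have : CharP (MonoidAlgebra k G) p := charP_of_injective_algebraMap (algebraMap k _).injective p
            have : ExpChar (MonoidAlgebra k G) p := ExpChar.prime hp.out
            rw [sub_pow_char_pow_of_commute p n hcomm, single_pow, single_pow, one_pow]
            rw [hn2 s (hn3 g), hs, sub_self]
          have h1 : ∀ i, tr V i (single g (1 : k)) = tr V i (single s (1 : k)) := by
            intro i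
            have := tr_nilpotent V i hnil
            rw [map_sub, sub_eq_zero] at this
            exact this
          let C : {c : ConjClasses G // ∃ g : G, ConjClasses.mk g = c ∧ (orderOf g).Coprime p} :=
            ⟨ConjClasses.mk s, s, rfl, hn3 g⟩
          have h2 : ∀ i, tr V i (single s (1 : k)) = tr V i (single (rep C) (1 : k)) := by
            intro i
            have h3 : ConjClasses.mk s = ConjClasses.mk (rep C) := (hrep1 C).symm
            rw [ConjClasses.mk_eq_mk_iff_isConj, isConj_iff] at h3
            obtain ⟨x, hx⟩ := h3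
            have e : (single (rep C) 1 : MonoidAlgebra k G) = single x 1 * (single s 1 * single x⁻¹ 1) := by
              rw [single_mul_single, single_mul_single, ← hx, mul_one, mul_one, mul_assoc]
            rw [e, tr_mul_comm, mul_assoc, single_mul_single, inv_mul_cancel, mul_one, ← MonoidAlgebra.one_def, mul_one]
          rw [ht]
          refine Eq.trans (Finset.sum_congr rfl fun i _ => ?_) (congrFun hc C)
          rw [h1, h2]
        intro a
        rw [eq_sum_single a, map_sum]
        refine Finset.sum_eq_zero fun g _ => ?_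
        have e : (single g (a.coeff g) : MonoidAlgebra k G) = a.coeff g • single g (1 : k) := by
          rw [MonoidAlgebra.smul_single', mul_one]
        rw [e, map_smul, hg, smul_zero]
      funext i
      have : Nontrivial (V i) := IsSimpleModule.nontrivial (MonoidAlgebra k G) (V i)
      -- an endomorphism of trace one on `V i`
      obtain ⟨f, hf⟩ : ∃ f : Module.End k (V i), LinearMap.trace k (V i) f = 1 := by
        obtain ⟨v, hv⟩ := exists_ne (0 : V i)
        obtain ⟨φ, hφ⟩ : ∃ φ : Module.Dual k (V i), φ v = 1 :=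
          Module.Projective.exists_dual_eq_one k hv
        refine ⟨φ.smulRight v, ?_⟩
        rw [LinearMap.trace_smulRight, hφ]
      obtain ⟨a, ha⟩ := exists_smul_eq (k := k) V hne (Pi.single i f)
      have h1 := ht0 a
      rw [ht, Finset.sum_eq_single i] at h1
      · have e : tr V i a = 1 := by
          rw [← hf]
          change LinearMap.trace k (V i) ((Algebra.lsmul k k (V i) : MonoidAlgebra k G →ₐ[k] _) a) = _
          congr 1
          ext v
          rw [Algebra.lsmul_coe]
          change a • v = f v
          rw [ha, Pi.single_eq_same]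
        rwa [e, mul_one] at h1
      · intro j _ hj
        have e : tr V j a = 0 := by
          change LinearMap.trace k (V j) ((Algebra.lsmul k k (V j) : MonoidAlgebra k G →ₐ[k] _) a) = _
          have : (Algebra.lsmul k k (V j) : MonoidAlgebra k G →ₐ[k] _) a = 0 := by
            ext v
            rw [Algebra.lsmul_coe]
            change a • v = 0
            rw [ha, Pi.single_eq_of_ne hj, LinearMap.zero_apply]
          rw [this, map_zero]
        rw [e, mul_zero]
      · intro h; exact absurd (Finset.mem_univ _) h
    have h1 := LinearMap.finrank_le_finrank_of_injective hL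
    rw [Module.finrank_fintype_fun_eq_card, Module.finrank_fintype_fun_eq_card, ← Nat.card_eq_fintype_card,
      ← Nat.card_eq_fintype_card] at h1
    exact h1

end main

end Cfsg.Agent.H53.BC
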