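import Cfsg.Agent.H53.CRMod

set_option autoImplicit false
set_option linter.unusedSectionVars false

/-!
# Curtis-Richen, part 6: simple modules are determined by the weights (helper53)
-/

namespace Cfsg.Agent.H53.CR

open Cfsg.Agent.ChevGrp Cfsg.Agent.ChevGrp.RGrp MonoidAlgebra

variable {l n : ℕ} {S : WSys l n} {G : Type*} [Group G] [Finite G] {R : RGrp S G} {Q : Type*} [CommGroup Q]
variable {C : CRD R Q}

attribute [local instance] ftSub

variable {k : Type*} [Field k]

section rep

variable (k) (M : Type*) [AddCommGroup M] [Module k M] [Module (MonoidAlgebra k G) M]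
variable [IsScalarTower k (MonoidAlgebra k G) M]

/-- the representation of `G` on a module of the group algebra -/
noncomputable def rep : G →* Module.End k M :=
  ((Algebra.lsmul k k M : MonoidAlgebra k G →ₐ[k] Module.End k M) : MonoidAlgebra k G →* Module.End k M).comp
    (MonoidAlgebra.of k G)

variable {k M}

omit [Finite G] in
theorem rep_apply (g : G) (v : M) : rep k M g v = (single g (1 : k) : MonoidAlgebra k G) • v := rfl

theorem smul_mem_of_stable (Y : Submodule k M) (hY : ∀ g : G, ∀ w ∈ Y, rep k M g w ∈ Y) (a : MonoidAlgebra k G) :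
    ∀ w ∈ Y, a • w ∈ Y := by
  intro w hw
  have : Fintype G := Fintype.ofFinite G
  rw [BC.eq_sum_single a, Finset.sum_smul]
  refine Y.sum_mem fun g _ => ?_
  have e : (single g (a.coeff g) : MonoidAlgebra k G) = a.coeff g • single g (1 : k) := by
    rw [MonoidAlgebra.smul_single', mul_one]
  rw [e, smul_assoc]
  exact Y.smul_mem _ (hY g w hw)

/-- a `G`-stable subspace as a submodule -/
noncomputable def toA (Y : Submodule k M) (hY : ∀ g : G, ∀ w ∈ Y, rep k M g w ∈ Y) :
    Submodule (MonoidAlgebra k G) M where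
  carrier := Y
  zero_mem' := Y.zero_mem
  add_mem' := Y.add_mem
  smul_mem' := fun a w hw => smul_mem_of_stable Y hY a w hw

theorem mem_toA {Y : Submodule k M} {hY : ∀ g : G, ∀ w ∈ Y, rep k M g w ∈ Y} {w : M} : w ∈ toA Y hY ↔ w ∈ Y := Iff.rfl

variable {M' : Type*} [AddCommGroup M'] [Module k M'] [Module (MonoidAlgebra k G) M']
variable [IsScalarTower k (MonoidAlgebra k G) M']

omit [Finite G] in
theorem map_rep (φ : M →ₗ[MonoidAlgebra k G] M') (g : G) (v : M) : φ (rep k M g v) = rep k M' g (φ v) := by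
  rw [rep_apply, rep_apply, map_smul]

theorem map_T (φ : M →ₗ[MonoidAlgebra k G] M') (i : Fin l) (v : M) :
    φ (T (rep k M) R i v) = T (rep k M') R i (φ v) := by
  unfold T sm
  rw [map_sum]
  exact Finset.sum_congr rfl fun x _ => by rw [map_rep, map_rep]

omit [Finite G] in
theorem map_ksmul (φ : M →ₗ[MonoidAlgebra k G] M') (c : k) (v : M) : φ (c • v) = c • φ v :=
  LinearMap.map_smul_of_tower φ c v

/-- the image of a weight vector -/
theorem Wt.map {χ : (Fin l → Q) →* kˣ} {lam : Fin l → k} {v : M} (h : Wt C (rep k M) χ lam v)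
    (φ : M →ₗ[MonoidAlgebra k G] M') (hφ : φ v ≠ 0) : Wt C (rep k M') χ lam (φ v) where
  ne := hφ
  be := ⟨fun u hu => by rw [← map_rep, h.be.1 u hu], fun t => by rw [← map_rep, h.be.2, map_ksmul]⟩
  eig := fun i => by rw [← map_T, h.eig, map_ksmul]

theorem vspan_simple [IsSimpleModule (MonoidAlgebra k G) M] {χ : (Fin l → Q) →* kˣ} {lam : Fin l → k} {v : M}
    (h : Wt C (rep k M) χ lam v) : vspan R (rep k M) v = ⊤ := by
  have h1 : toA (vspan R (rep k M) v) (vspan_stable h) ≠ ⊥ := by
    intro hb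
    apply h.ne
    have : v ∈ toA (vspan R (rep k M) v) (vspan_stable h) := by
      rw [mem_toA]
      have := mem_vspan (ρ := rep k M) v (one_mem R.V)
      rwa [rone] at this
    rw [hb] at this
    exact (Submodule.mem_bot _).1 this
  have h2 := (eq_bot_or_eq_top (toA (vspan R (rep k M) v) (vspan_stable h))).resolve_left h1
  rw [eq_top_iff]
  intro w _
  have : w ∈ toA (vspan R (rep k M) v) (vspan_stable h) := by rw [h2]; trivial
  exact this

/-- the weight of a simple module is unique -/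
theorem weight_simple [IsSimpleModule (MonoidAlgebra k G) M] (p : ℕ) [Fact p.Prime] [CharP k p] (hU : IsPGroup p R.U)
    {χ χ' : (Fin l → Q) →* kˣ} {lam lam' : Fin l → k} {v v' : M}
    (h : Wt C (rep k M) χ lam v) (h' : Wt C (rep k M) χ' lam' v') : χ = χ' ∧ lam = lam' :=
  weight_unique p hU h h' (vspan_simple h) (vspan_simple h')

/-- the span of `v` inside itself -/
theorem vspan_self (D : Submodule (MonoidAlgebra k G) M) {v : M} (hv : v ∈ D)
    (hD : ∀ w ∈ D, w ∈ vspan R (rep k M) v) : vspan R (rep k D) (⟨v, hv⟩ : D) = ⊤ := by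
  rw [eq_top_iff]
  rintro ⟨w, hw⟩ -
  have h1 := hD w hw
  have h2 : (vspan R (rep k M) v) ≤ (vspan R (rep k D) (⟨v, hv⟩ : D)).map (D.subtype.restrictScalars k) := by
    unfold vspan
    rw [Submodule.span_le]
    rintro _ ⟨y, hy, rfl⟩
    exact ⟨rep k D y ⟨v, hv⟩, mem_vspan (ρ := rep k D) _ hy, rfl⟩
  obtain ⟨d, hd, hdw⟩ := h2 h1
  have : d = ⟨w, hw⟩ := Subtype.ext hdw
  rw [← this]; exact hd

/-- simple modules with the same weight are isomorphic -/
theorem iso_of_Wt [IsSimpleModule (MonoidAlgebra k G) M] [IsSimpleModule (MonoidAlgebra k G) M']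
    (p : ℕ) [Fact p.Prime] [CharP k p] (hU : IsPGroup p R.U)
    {χ : (Fin l → Q) →* kˣ} {lam : Fin l → k} {v : M} {v' : M'}
    (h : Wt C (rep k M) χ lam v) (h' : Wt C (rep k M') χ lam v') : Nonempty (M ≃ₗ[MonoidAlgebra k G] M') := by
  have hrep : ∀ (g : G) (a : M) (b : M'), rep k (M × M') g (a, b) = (rep k M g a, rep k M' g b) := fun _ _ _ => rfl
  have hT : ∀ (i : Fin l) (a : M) (b : M'), T (rep k (M × M')) R i (a, b) = (T (rep k M) R i a, T (rep k M') R i b) := by
    intro i a b
    unfold T sm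
    refine Prod.ext ?_ ?_
    · rw [Prod.fst_sum]; rfl
    · rw [Prod.snd_sum]; rfl
  have hw : Wt C (rep k (M × M')) χ lam (v, v') :=
    { ne := fun h0 => h.ne (congrArg Prod.fst h0)
      be := ⟨fun u hu => by rw [hrep, h.be.1 u hu, h'.be.1 u hu], fun t => by
        rw [hrep, h.be.2, h'.be.2, Prod.smul_mk]⟩
      eig := fun i => by rw [hT, h.eig, h'.eig, Prod.smul_mk] }
  let D := toA (vspan R (rep k (M × M')) (v, v')) (vspan_stable hw)
  have hvD : (v, v') ∈ D := by
    have := mem_vspan (ρ := rep k (M × M')) (v, v') (one_mem R.V)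
    rwa [rone] at this
  have hspan : vspan R (rep k D) (⟨(v, v'), hvD⟩ : D) = ⊤ := vspan_self D hvD fun w hw => hw
  have hne0 : (⟨(v, v'), hvD⟩ : D) ≠ 0 := fun h0 => hw.ne (congrArg Subtype.val h0)
  obtain ⟨f, hf1, hfV, hfu, hfN⟩ := exists_f0 (R := R) (ρ := rep k D) p hU hne0 hspan
  let p1 : D →ₗ[MonoidAlgebra k G] M := (LinearMap.fst _ M M') ∘ₗ D.subtype
  let p2 : D →ₗ[MonoidAlgebra k G] M' := (LinearMap.snd _ M M') ∘ₗ D.subtype
  have hk1 : ∀ d : D, p1 d = 0 → f d = 0 := by
    intro d hd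
    refine hfN ((LinearMap.ker p1).restrictScalars k) ?_ ?_ d hd
    · intro htop
      have : (⟨(v, v'), hvD⟩ : D) ∈ (LinearMap.ker p1).restrictScalars k := by rw [htop]; trivial
      exact h.ne this
    · intro y _ w hw
      change p1 (rep k D y w) = 0
      rw [map_rep, show p1 w = 0 from hw, map_zero]
  have hk2 : ∀ d : D, p2 d = 0 → f d = 0 := by
    intro d hd
    refine hfN ((LinearMap.ker p2).restrictScalars k) ?_ ?_ d hd
    · intro htop
      have : (⟨(v, v'), hvD⟩ : D) ∈ (LinearMap.ker p2).restrictScalars k := by rw [htop]; trivial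
      exact h'.ne this
    · intro y _ w hw
      change p2 (rep k D y w) = 0
      rw [map_rep, show p2 w = 0 from hw, map_zero]
  -- the vectors `(v, 0)` and `(0, v')` do not both lie in `D`
  have hnot : ¬ ((v, (0 : M')) ∈ D ∧ ((0 : M), v') ∈ D) := by
    rintro ⟨h1, h2⟩
    have h3 : (⟨(v, v'), hvD⟩ : D) = ⟨(v, 0), h1⟩ + ⟨(0, v'), h2⟩ := Subtype.ext (by
      change (v, v') = (v, 0) + (0, v')
      rw [Prod.mk_add_mk, add_zero, zero_add])
    rw [h3, map_add, hk2 ⟨(v, 0), h1⟩ rfl, hk1 ⟨(0, v'), h2⟩ rfl, add_zero] at hf1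
    exact zero_ne_one hf1
  have hinj1 : Function.Injective p1 := by
    rw [← LinearMap.ker_eq_bot]
    by_contra hne
    have h1 : (LinearMap.ker p1).map p2 ≠ ⊥ := by
      intro hb
      apply hne
      rw [eq_bot_iff]
      rintro ⟨⟨a, b⟩, hab⟩ hd
      have ha : a = 0 := hd
      have hb' : b ∈ (LinearMap.ker p1).map p2 := ⟨⟨(a, b), hab⟩, hd, rfl⟩
      rw [hb, Submodule.mem_bot] at hb'
      rw [Submodule.mem_bot]
      exact Subtype.ext (Prod.ext ha hb')
    have h2 := (eq_bot_or_eq_top ((LinearMap.ker p1).map p2)).resolve_left h1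
    have h3 : v' ∈ (LinearMap.ker p1).map p2 := by rw [h2]; trivial
    obtain ⟨⟨⟨a, b⟩, hab⟩, hd, hb⟩ := h3
    have ha : a = 0 := hd
    have hb' : b = v' := hb
    rw [ha, hb'] at hab
    refine hnot ⟨?_, hab⟩
    have := D.sub_mem hvD hab
    rwa [Prod.mk_sub_mk, sub_zero, sub_self] at this
  have hinj2 : Function.Injective p2 := by
    rw [← LinearMap.ker_eq_bot]
    by_contra hne
    have h1 : (LinearMap.ker p2).map p1 ≠ ⊥ := by
      intro hb
      apply hne
      rw [eq_bot_iff]
      rintro ⟨⟨a, b⟩, hab⟩ hd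
      have ha : b = 0 := hd
      have hb' : a ∈ (LinearMap.ker p2).map p1 := ⟨⟨(a, b), hab⟩, hd, rfl⟩
      rw [hb, Submodule.mem_bot] at hb'
      rw [Submodule.mem_bot]
      exact Subtype.ext (Prod.ext hb' ha)
    have h2 := (eq_bot_or_eq_top ((LinearMap.ker p2).map p1)).resolve_left h1
    have h3 : v ∈ (LinearMap.ker p2).map p1 := by rw [h2]; trivial
    obtain ⟨⟨⟨a, b⟩, hab⟩, hd, hb⟩ := h3
    have ha : b = 0 := hd
    have hb' : a = v := hb
    rw [ha, hb'] at hab
    refine hnot ⟨hab, ?_⟩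
    have := D.sub_mem hvD hab
    rwa [Prod.mk_sub_mk, sub_zero, sub_self] at this
  have hsurj1 : Function.Surjective p1 := by
    rw [← LinearMap.range_eq_top]
    refine (eq_bot_or_eq_top (LinearMap.range p1)).resolve_left fun hb => h.ne ?_
    have : v ∈ LinearMap.range p1 := ⟨⟨(v, v'), hvD⟩, rfl⟩
    rw [hb] at this
    exact (Submodule.mem_bot _).1 this
  have hsurj2 : Function.Surjective p2 := by
    rw [← LinearMap.range_eq_top]
    refine (eq_bot_or_eq_top (LinearMap.range p2)).resolve_left fun hb => h'.ne ?_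
    have : v' ∈ LinearMap.range p2 := ⟨⟨(v, v'), hvD⟩, rfl⟩
    rw [hb] at this
    exact (Submodule.mem_bot _).1 this
  exact ⟨(LinearEquiv.ofBijective p1 ⟨hinj1, hsurj1⟩).symm.trans (LinearEquiv.ofBijective p2 ⟨hinj2, hsurj2⟩)⟩

end rep

section coatom

/-- a weight vector of the group algebra gives a maximal left ideal whose quotient has this weight -/
theorem exists_coatom (p : ℕ) [Fact p.Prime] [CharP k p] (hU : IsPGroup p R.U)
    {χ : (Fin l → Q) →* kˣ} {lam : Fin l → k} {a : MonoidAlgebra k G}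
    (h : Wt C (rep k (MonoidAlgebra k G)) χ lam a) :
    ∃ m : Submodule (MonoidAlgebra k G) (MonoidAlgebra k G), IsCoatom m ∧
      Wt C (rep k (MonoidAlgebra k G ⧸ m)) χ lam (Submodule.Quotient.mk 1) := by
  have iF : Fintype G := Fintype.ofFinite G
  let N := toA (vspan R (rep k (MonoidAlgebra k G)) a) (vspan_stable h)
  have haN : a ∈ N := by
    have := mem_vspan (ρ := rep k (MonoidAlgebra k G)) a (one_mem R.V)
    rwa [rone] at this
  have hspan : vspan R (rep k N) (⟨a, haN⟩ : N) = ⊤ := vspan_self N haN fun w hw => hw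
  have hne0 : (⟨a, haN⟩ : N) ≠ 0 := fun h0 => h.ne (congrArg Subtype.val h0)
  obtain ⟨f0, hf1, hfV, -, hfN⟩ := exists_f0 (R := R) (ρ := rep k N) p hU hne0 hspan
  have hxN : ∀ x : MonoidAlgebra k G, x * a ∈ N := fun x => N.smul_mem x haN
  let F : MonoidAlgebra k G →ₗ[MonoidAlgebra k G] N :=
    { toFun := fun x => ⟨x * a, hxN x⟩
      map_add' := fun x y => Subtype.ext (add_mul x y a)
      map_smul' := fun x y => Subtype.ext (mul_assoc x y a) }
  let m : Submodule (MonoidAlgebra k G) (MonoidAlgebra k G) :=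
    { carrier := {x | ∀ y : MonoidAlgebra k G, f0 (y • F x) = 0}
      zero_mem' := fun y => by rw [map_zero, smul_zero, map_zero]
      add_mem' := fun {x x'} hx hx' y => by rw [map_add, smul_add, map_add, hx y, hx' y, add_zero]
      smul_mem' := fun z x hx y => by rw [LinearMap.map_smul F z x, ← mul_smul]; exact hx _ }
  have hm : ∀ x, x ∈ m ↔ ∀ y : MonoidAlgebra k G, f0 (y • F x) = 0 := fun x => Iff.rfl
  have hker : ∀ x, F x = 0 → x ∈ m := fun x hx y => by rw [hx, smul_zero, map_zero]
  have h1m : (1 : MonoidAlgebra k G) ∉ m := by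
    intro h1
    have h2 := (hm _).1 h1 1
    rw [one_smul] at h2
    have h3 : F 1 = ⟨a, haN⟩ := Subtype.ext (one_mul a)
    rw [h3, hf1] at h2
    exact one_ne_zero h2
  have hco : IsCoatom m := by
    refine ⟨fun htop => h1m (by rw [htop]; trivial), fun m' hm' => ?_⟩
    obtain ⟨hle, x, hx', hxm⟩ := SetLike.lt_iff_le_and_exists.1 hm'
    have hN' : (m'.map F) = ⊤ := by
      by_contra hne
      apply hxm
      intro y
      refine hfN ((m'.map F).restrictScalars k) ?_ ?_ _ ?_
      · intro htop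
        apply hne
        rw [eq_top_iff]
        intro w _
        have : w ∈ (m'.map F).restrictScalars k := by rw [htop]; trivial
        exact this
      · intro y _ w hw
        exact (m'.map F).smul_mem _ hw
      · exact (m'.map F).smul_mem _ ⟨x, hx', rfl⟩
    have h2 : (⟨a, haN⟩ : N) ∈ m'.map F := by rw [hN']; trivial
    obtain ⟨x', hx'm, hx'a⟩ := h2
    have h3 : F (1 - x') = 0 := by
      rw [map_sub, hx'a]
      have h3 : F 1 = ⟨a, haN⟩ := Subtype.ext (one_mul a)
      rw [h3, sub_self]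
    have h4 := m'.add_mem (hle (hker _ h3)) hx'm
    rw [sub_add_cancel] at h4
    rw [eq_top_iff]
    intro z _
    have := m'.smul_mem z h4
    rwa [smul_eq_mul, mul_one] at this
  refine ⟨m, hco, ?_⟩
  have hmk : ∀ x y : MonoidAlgebra k G, F x = F y → m.mkQ x = m.mkQ y := by
    intro x y hxy
    rw [Submodule.mkQ_apply, Submodule.mkQ_apply, Submodule.Quotient.eq]
    refine hker _ ?_
    rw [map_sub, hxy, sub_self]
  have hF1 : F 1 = ⟨a, haN⟩ := Subtype.ext (one_mul a)
  have hF1' : N.subtype (F 1) = a := congrArg Subtype.val hF1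
  refine ⟨?_, ⟨?_, ?_⟩, ?_⟩
  · intro h0
    exact h1m ((Submodule.Quotient.mk_eq_zero m).1 h0)
  · intro u hu
    have h1 := hmk (rep k _ u 1) 1 (by
      rw [map_rep]
      apply N.injective_subtype
      rw [map_rep, hF1', h.be.1 u hu])
    rwa [map_rep] at h1
  · intro t
    have h1 := hmk (rep k _ (C.h t) 1) ((χ t : k) • 1) (by
      rw [map_rep, map_ksmul]
      apply N.injective_subtype
      rw [map_rep, map_ksmul, hF1', h.be.2 t])
    rwa [map_rep, map_ksmul] at h1
  · intro i
    have h1 := hmk (T (rep k _) R i 1) (lam i • 1) (by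
      rw [map_T, map_ksmul]
      apply N.injective_subtype
      rw [map_T, map_ksmul, hF1', h.eig i])
    rwa [map_T, map_ksmul] at h1

end coatom

section adm

variable {M : Type*} [AddCommGroup M] [Module k M] {ρ : G →* Module.End k M}

/-- the weights are admissible -/
theorem Wt.adm [Fintype Q] {χ : (Fin l → Q) →* kˣ} {lam : Fin l → k} {v : M} (h : Wt C ρ χ lam v)
    (hq : ∀ i, ((Nat.card (R.X (S.p i)) : ℕ) : k) = 0) (hQ : ((Nat.card Q : ℕ) : k) = -1) (i : Fin l) :
    lam i = 0 ∨ (lam i = -1 ∧ ∀ c : Q, χ (Pi.mulSingle i c) = 1) := by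
  classical
  have h1 := T_sq h.be i (hq i)
  rw [h.eig, T_smul, h.eig, smul_smul, smul_smul] at h1
  have h2 : (lam i * lam i - (∑ c : Q, (χ (Pi.mulSingle i c) : k)) * lam i) • v = 0 := by
    rw [sub_smul, h1, sub_self]
  have h3 := (smul_eq_zero.1 h2).resolve_right h.ne
  rw [← sub_mul, mul_eq_zero] at h3
  rcases h3 with h3 | h3
  · let g : Q →* k := (Units.coeHom k).comp (χ.comp (MonoidHom.mulSingle (fun _ : Fin l => Q) i))
    by_cases hg : g = 1
    · right
      have h4 : ∀ c : Q, χ (Pi.mulSingle i c) = 1 := by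
        intro c
        apply Units.ext
        exact congrArg (fun F : Q →* k => F c) hg
      refine ⟨?_, h4⟩
      rw [sub_eq_zero] at h3
      rw [h3, Finset.sum_congr rfl fun c _ => by rw [h4 c], Finset.sum_const, Finset.card_univ,
        ← Nat.card_eq_fintype_card, Units.val_one, nsmul_eq_mul, mul_one, hQ]
    · left
      rw [sub_eq_zero] at h3
      rw [h3]
      exact sum_hom_units_eq_zero g hg
  · exact Or.inl h3

end adm

end Cfsg.Agent.H53.CR
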