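import Cfsg.Agent.ChevGrp.Order

set_option autoImplicit false

/-!
# Curtis-Richen, part 1: group theory in groups with a system of root subgroups (helper53)
-/

namespace Cfsg.Agent.H53.CR

open Cfsg.Agent.ChevGrp Cfsg.Agent.ChevGrp.RGrp

variable {l n : ℕ} {S : WSys l n} {G : Type*} [Group G] {R : RGrp S G}

theorem papply_inv_self (u : Equiv.Perm (Fin n)) (r : Fin n) : u (u⁻¹ r) = r := by
  rw [← Equiv.Perm.mul_apply, mul_inv_cancel]; rfl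

theorem pinv_apply_self (u : Equiv.Perm (Fin n)) (r : Fin n) : u⁻¹ (u r) = r := by
  rw [← Equiv.Perm.mul_apply, inv_mul_cancel]; rfl

/-- `-w₀(p j)` is a simple root -/
theorem neg_longest_simple {u : Equiv.Perm (Fin n)} (hu : u ∈ S.W) (h : ∀ r, S.Pos r → ¬ S.Pos (u r)) (j : Fin l) :
    ∃ i, u (S.p j) = S.neg (S.p i) := by
  have hinv : ∀ r, S.Pos r → ¬ S.Pos (u⁻¹ r) := by
    intro r hr hcon
    have := h _ hcon
    rw [papply_inv_self] at this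
    exact this hr
  set v := u * S.w j * u⁻¹ with hv
  have hvW : v ∈ S.W := mul_mem (mul_mem hu (S.w_mem j)) (inv_mem hu)
  have hne : v ≠ 1 := by
    intro h1
    have h2 : S.w j = 1 := by
      have : S.w j = u⁻¹ * v * u := by rw [hv]; group
      rw [this, h1]; group
    have h3 := S.w_p j
    rw [h2, Equiv.Perm.one_apply] at h3
    have h4 := S.pos_p j
    have h5 : S.Pos (S.neg (S.p j)) := by rw [← h3]; exact h4
    rw [S.pos_neg_iff] at h5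
    exact h5 h4
  obtain ⟨i, hi⟩ := S.descent v hvW hne
  refine ⟨i, ?_⟩
  have h1 : S.Pos (S.neg (u⁻¹ (S.p i))) := (S.pos_neg_iff _).2 (hinv _ (S.pos_p i))
  by_contra hcon
  apply hi
  have h2 : S.neg (u⁻¹ (S.p i)) ≠ S.p j := by
    intro h3
    apply hcon
    rw [← h3, S.W_neg hu, papply_inv_self]
  have h3 := S.pos_w j _ h1 h2
  have h4 := h _ h3
  have h5 : u (S.w j (S.neg (u⁻¹ (S.p i)))) = S.neg (v (S.p i)) := by
    rw [S.w_neg, S.W_neg hu, hv, Equiv.Perm.mul_apply, Equiv.Perm.mul_apply]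
  rw [h5, S.pos_neg_iff] at h4
  simpa using h4

/-- each simple root is the negative of the image of a simple root under `w₀` -/
theorem exists_opp_simple {u : Equiv.Perm (Fin n)} (hu : u ∈ S.W) (h : ∀ r, S.Pos r → ¬ S.Pos (u r)) (i : Fin l) :
    ∃ j, u (S.p j) = S.neg (S.p i) := by
  choose f hf using neg_longest_simple hu h
  have hinj : Function.Injective f := by
    intro a b hab
    have h1 : u (S.p a) = u (S.p b) := by rw [hf, hf, hab]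
    exact S.p_inj (u.injective h1)
  obtain ⟨j, hj⟩ := (Finite.injective_iff_surjective.1 hinj) i
  exact ⟨j, by rw [hf, hj]⟩

variable (R) in
/-- the product of the negative root subgroups except `-p i` -/
def Vi (i : Fin l) : Subgroup G := gen R.X (fun r => ¬ S.Pos r ∧ r ≠ S.neg (S.p i))

theorem Vi_le_V (i : Fin l) : Vi R i ≤ R.V := gen_mono fun _ h => h.1

theorem not_pos_neg_p (i : Fin l) : ¬ S.Pos (S.neg (S.p i)) := by
  rw [S.pos_neg_iff]; simpa using S.pos_p i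

theorem Xneg_le_V (i : Fin l) : R.X (S.neg (S.p i)) ≤ R.V := R.X_le_V (not_pos_neg_p i)

theorem nn_Vi (i : Fin l) : ∀ x ∈ Vi R i, R.nn i * x * (R.nn i)⁻¹ ∈ Vi R i := by
  refine act_gen (act_nn i) ?_
  rintro r ⟨h1, h2⟩
  have h3 : S.Pos (S.neg r) := (S.pos_neg_iff r).2 h1
  have h4 : S.neg r ≠ S.p i := fun h => h2 (by rw [← h, S.neg_neg])
  have h5 := S.pos_w i _ h3 h4
  rw [S.w_neg, S.pos_neg_iff] at h5
  refine ⟨h5, fun h => ?_⟩
  have h6 := S.w_w i r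
  rw [h, S.w_neg, S.w_p, S.neg_neg] at h6
  rw [← h6] at h1
  exact h1 (S.pos_p i)

/-- transport by an element acting as `w₀` -/
theorem exists_opp (i : Fin l) : ∃ g ∈ R.N, ∃ j : Fin l,
    (∀ x ∈ R.U, g * x * g⁻¹ ∈ R.V) ∧ (∀ x ∈ R.V, g⁻¹ * x * g ∈ R.U) ∧
    (∀ x ∈ R.X (S.p j), g * x * g⁻¹ ∈ R.X (S.neg (S.p i))) ∧ (∀ x ∈ R.X (S.neg (S.p i)), g⁻¹ * x * g ∈ R.X (S.p j)) ∧
    (∀ x ∈ R.Ui j, g * x * g⁻¹ ∈ Vi R i) ∧ (∀ x ∈ Vi R i, g⁻¹ * x * g ∈ R.Ui j) := by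
  obtain ⟨g, hg, u, hgu, h, hUV⟩ := exists_n0 (R := R)
  obtain ⟨j, hj⟩ := exists_opp_simple hgu.1 h i
  have hinv : ∀ r, ¬ S.Pos r → S.Pos (u⁻¹ r) := by
    intro r hr
    by_contra hcon
    have h1 := h _ ((S.pos_neg_iff _).2 hcon)
    rw [S.W_neg hgu.1, S.pos_neg_iff] at h1
    apply h1
    simpa using hr
  have hj' : u⁻¹ (S.neg (S.p i)) = S.p j := by rw [← hj, pinv_apply_self]
  refine ⟨g, hg, j, act_gen hgu h, act_gen' hgu hinv, ?_, ?_, ?_, ?_⟩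
  · intro x hx
    rw [← hj]; exact hgu.conj hx
  · intro x hx
    rw [← hj']; exact hgu.conj' hx
  · refine act_gen hgu ?_
    rintro r ⟨h1, h2⟩
    refine ⟨h r h1, fun h3 => h2 ?_⟩
    rw [← hj] at h3
    exact u.injective h3
  · refine act_gen' hgu ?_
    rintro r ⟨h1, h2⟩
    refine ⟨hinv r h1, fun h3 => h2 ?_⟩
    rw [← hj'] at h3
    exact (u⁻¹).injective h3

/-- `V = V_i X_{-i}` -/
theorem mem_V' (i : Fin l) {y : G} (hy : y ∈ R.V) : ∃ z ∈ Vi R i, ∃ x ∈ R.X (S.neg (S.p i)), y = z * x := by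
  obtain ⟨g, hg, j, h1, h2, h3, h4, h5, h6⟩ := exists_opp (R := R) i
  obtain ⟨u, hu, x, hx, e⟩ := mem_U' j (h2 y hy)
  refine ⟨_, h5 u hu, _, h3 x hx, ?_⟩
  have : y = g * (g⁻¹ * y * g) * g⁻¹ := by group
  rw [this, e]; group

/-- `V = X_{-i} V_i` -/
theorem mem_V (i : Fin l) {y : G} (hy : y ∈ R.V) : ∃ x ∈ R.X (S.neg (S.p i)), ∃ z ∈ Vi R i, y = x * z := by
  obtain ⟨g, hg, j, h1, h2, h3, h4, h5, h6⟩ := exists_opp (R := R) i
  obtain ⟨x, hx, u, hu, e⟩ := mem_U j (h2 y hy)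
  refine ⟨_, h3 x hx, _, h5 u hu, ?_⟩
  have : y = g * (g⁻¹ * y * g) * g⁻¹ := by group
  rw [this, e]; group

theorem Xneg_Vi (i : Fin l) : ∀ x ∈ R.X (S.neg (S.p i)), ∀ z ∈ Vi R i, x * z * x⁻¹ ∈ Vi R i := by
  obtain ⟨g, hg, j, h1, h2, h3, h4, h5, h6⟩ := exists_opp (R := R) i
  intro x hx z hz
  have h7 := h5 _ (R.XU j _ (h4 x hx) _ (h6 z hz))
  have : g * (g⁻¹ * x * g * (g⁻¹ * z * g) * (g⁻¹ * x * g)⁻¹) * g⁻¹ = x * z * x⁻¹ := by group
  rwa [this] at h7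

/-- generation -/
theorem eq_top_of (hR : R.Grp = ⊤) (K : Subgroup G) (h1 : R.V ≤ K) (h2 : R.H ≤ K) (h3 : ∀ i, R.nn i ∈ K) : K = ⊤ := by
  have hN : R.N ≤ K := by
    refine sup_le h2 ?_
    rw [Subgroup.closure_le]
    rintro _ ⟨i, rfl⟩; exact h3 i
  rw [eq_top_iff, ← hR]
  refine sup_le (sup_le ?_ h2) hN
  obtain ⟨g, hg, u, hgu, h, hUV⟩ := exists_n0 (R := R)
  intro x hx
  have h4 : g * x * g⁻¹ ∈ R.V := by rw [← hUV]; exact ⟨x, hx, rfl⟩
  have : x = g⁻¹ * (g * x * g⁻¹) * g := by group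
  rw [this]
  exact mul_mem (mul_mem (inv_mem (hN hg)) (h1 h4)) (hN hg)

/-- `G = V N U` -/
theorem exists_VNU (hR : R.Grp = ⊤) (g : G) : ∃ y ∈ R.V, ∃ m ∈ R.N, ∃ u ∈ R.U, g = y * m * u := by
  obtain ⟨g0, hg0, u0, hgu, h, hUV⟩ := exists_n0 (R := R)
  obtain ⟨b, hb, m, hm, b', hb', e⟩ := exists_bnb (R := R) (g := g0⁻¹ * g) (by rw [hR]; trivial)
  obtain ⟨v, hv, k, hk, rfl⟩ := mem_B.1 hb
  obtain ⟨k', hk', v', hv', rfl⟩ := mem_B'.1 hb'
  refine ⟨g0 * v * g0⁻¹, ?_, g0 * k * m * k', mul_mem (mul_mem (mul_mem hg0 (R.H_le_N hk)) hm) (R.H_le_N hk'), v', hv', ?_⟩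
  · rw [← hUV]; exact ⟨v, hv, rfl⟩
  · have : g = g0 * (g0⁻¹ * g) := by group
    rw [this, e]; group

/-- the `N`-component of an element of `V N U` is unique -/
theorem VNU_unique {y u m m' : G} (hy : y ∈ R.V) (hu : u ∈ R.U) (hm : m ∈ R.N) (hm' : m' ∈ R.N)
    (e : y * m = m' * u) : m = m' := by
  obtain ⟨g0, hg0, u0, hgu, h, hUV⟩ := exists_n0 (R := R)
  obtain ⟨w, hw⟩ := exists_act hm
  obtain ⟨w', hw'⟩ := exists_act hm'
  have hyU : g0⁻¹ * y * g0 ∈ R.U := by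
    rw [← hUV] at hy
    obtain ⟨v, hv, rfl⟩ := hy
    have : g0⁻¹ * (MulAut.conj g0).toMonoidHom v * g0 = v := by
      change g0⁻¹ * (g0 * v * g0⁻¹) * g0 = v
      group
    rw [this]; exact hv
  have h1 : u0⁻¹ * w = u0⁻¹ * w' := by
    refine act_eq_of_bnb (hgu.inv.mul hw) (mul_mem (inv_mem hg0) hm) (hgu.inv.mul hw') (mul_mem (inv_mem hg0) hm')
      (R.U_le_B hyU) (inv_mem (R.U_le_B hu)) ?_
    have : m' = y * m * u⁻¹ := by rw [e]; group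
    rw [this]; group
  have h2 : w = w' := mul_left_cancel h1
  subst h2
  set h0 := m⁻¹ * m' with hh0
  have hh : h0 ∈ R.H := inv_mul_mem_H hm hm' hw hw'
  have hm'e : m' = m * h0 := by rw [hh0]; group
  obtain ⟨b', hb', x, hx, e2⟩ := exists_bnu hw hm (b := u) (R.U_le_B hu)
  have h3 : y * (m * x⁻¹ * m⁻¹) = (m * h0 * m⁻¹) * b' := by
    have h4 : y * m = m * h0 * m⁻¹ * (m * u) := by rw [e, hm'e]; group
    rw [e2] at h4
    have h5 : y * (m * x⁻¹ * m⁻¹) = (y * m) * x⁻¹ * m⁻¹ := by group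
    rw [h5, h4]; group
  have h4 : y * (m * x⁻¹ * m⁻¹) ∈ R.V := mul_mem hy (conj_Um hw _ (inv_mem hx))
  have h5 : (m * h0 * m⁻¹) * b' ∈ R.B := mul_mem (R.H_le_B (N_conj_H hm hh)) hb'
  have h6 := R.B_inf_V h5 (by rw [← h3]; exact h4)
  have h7 : h0 * u = x := by
    have h8 : m * h0 * u = m * x := by
      have h9 : m * h0 * u = m * h0 * m⁻¹ * (m * u) := by group
      rw [h9, e2]
      have h10 : m * h0 * m⁻¹ * (b' * m * x) = (m * h0 * m⁻¹ * b') * m * x := by group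
      rw [h10, h6, one_mul]
    rw [mul_assoc] at h8
    exact mul_left_cancel h8
  have h8 : h0 ∈ R.U := by
    have : h0 = x * u⁻¹ := by rw [← h7]; group
    rw [this]; exact mul_mem (Um_le_U _ hx) (inv_mem hu)
  have h9 := R.UH h0 h8 hh
  rw [hm'e, h9, mul_one]

/-- parametrisation of `Um (u w_j)` by `X_j × Um u` -/
theorem Um_bij [Finite G] {u : Equiv.Perm (Fin n)} (hu : u ∈ S.W) {j : Fin l} (hj : S.Pos (u (S.p j))) :
    ∃ e : R.X (S.p j) × R.Um u ≃ R.Um (u * S.w j), ∀ p, (e p : G) = p.1 * (R.nn j * p.2 * (R.nn j)⁻¹) := by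
  have hdesc : ¬ S.Pos ((u * S.w j) (S.p j)) := by
    rw [Equiv.Perm.mul_apply, S.w_p, S.W_neg hu, S.pos_neg_iff]; simpa using hj
  have hz : ∀ z ∈ R.Um u, R.nn j * z * (R.nn j)⁻¹ ∈ R.Um (u * S.w j) := by
    refine act_gen (act_nn j) ?_
    rintro r ⟨h1, h2⟩
    have hne : r ≠ S.p j := by rintro rfl; exact h2 hj
    refine ⟨S.pos_w j r h1 hne, ?_⟩
    rw [Equiv.Perm.mul_apply, S.w_w]; exact h2
  let F : R.X (S.p j) × R.Um u → R.Um (u * S.w j) := fun p =>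
    ⟨p.1 * (R.nn j * p.2 * (R.nn j)⁻¹), mul_mem (mem_gen ⟨S.pos_p j, hdesc⟩ p.1.2) (hz _ p.2.2)⟩
  have hF : Function.Injective F := by
    rintro ⟨⟨x, hx⟩, ⟨z, hz1⟩⟩ ⟨⟨x', hx'⟩, ⟨z', hz1'⟩⟩ e
    have e1 : x * (R.nn j * z * (R.nn j)⁻¹) = x' * (R.nn j * z' * (R.nn j)⁻¹) := congrArg Subtype.val e
    have h1 : (R.nn j)⁻¹ * (x'⁻¹ * x) * R.nn j = z' * z⁻¹ := by
      have : x = x' * (R.nn j * z' * (R.nn j)⁻¹) * (R.nn j * z * (R.nn j)⁻¹)⁻¹ := by rw [← e1]; group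
      rw [this]; group
    have h2 : (R.nn j)⁻¹ * (x'⁻¹ * x) * R.nn j ∈ R.V := by
      have := (act_nn (R := R) j).conj' (mul_mem (inv_mem hx') hx)
      rw [S.w_inv, S.w_p] at this
      exact Xneg_le_V j this
    have h3 := R.U_inf_V (mul_mem (Um_le_U _ hz1') (inv_mem (Um_le_U _ hz1))) (by rw [← h1]; exact h2)
    have h4 : z' = z := mul_inv_eq_one.1 h3
    subst h4
    have h5 : x = x' := mul_right_cancel e1
    subst h5
    rfl
  have hcard : Nat.card (R.X (S.p j) × R.Um u) = Nat.card (R.Um (u * S.w j)) := by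
    rw [Nat.card_prod, card_Um_mul hu hj, mul_comm]
  have hbij : Function.Bijective F := (Nat.bijective_iff_injective_and_card F).2 ⟨hF, hcard⟩
  exact ⟨Equiv.ofBijective F hbij, fun p => rfl⟩

end Cfsg.Agent.H53.CR
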