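import Cfsg.Agent.H53.CRExist

set_option autoImplicit false
set_option linter.unusedSectionVars false

/-!
# Curtis-Richen, part 8: the number of simple modules in the defining characteristic (helper53)
-/

namespace Cfsg.Agent.H53.CR

open Cfsg.Agent.ChevGrp Cfsg.Agent.ChevGrp.RGrp MonoidAlgebra

variable {l n : ℕ} {S : WSys l n} {G : Type*} [Group G] [Finite G] {R : RGrp S G} {Q : Type*} [CommGroup Q]

section count

variable (k : Type*) [Field k]

/-- characters with a mark on the trivial character -/
abbrev Ix (l : ℕ) (Q : Type*) [CommGroup Q] (k : Type*) [Field k] := Fin l → Option (Q →* kˣ)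

variable {k}

/-- the underlying character -/
noncomputable def chI (i : Ix l Q k) : (Fin l → Q) →* kˣ :=
  ∏ j, ((i j).getD 1).comp (Pi.evalMonoidHom (fun _ => Q) j)

theorem chI_single (i : Ix l Q k) (j : Fin l) (c : Q) : chI i (Pi.mulSingle j c) = ((i j).getD 1) c := by
  classical
  unfold chI
  rw [MonoidHom.finsetProd_apply, Finset.prod_eq_single j]
  · rw [MonoidHom.comp_apply, Pi.evalMonoidHom_apply, Pi.mulSingle_eq_same]
  · intro b _ hb
    rw [MonoidHom.comp_apply, Pi.evalMonoidHom_apply, Pi.mulSingle_eq_of_ne hb, map_one]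
  · intro h; exact absurd (Finset.mem_univ _) h

/-- the eigenvalues -/
noncomputable def laI (i : Ix l Q k) (j : Fin l) : k := if (i j).isSome then 0 else -1

theorem chI_ext {χ χ' : (Fin l → Q) →* kˣ} (h : ∀ j c, χ (Pi.mulSingle j c) = χ' (Pi.mulSingle j c)) : χ = χ' := by
  classical
  refine MonoidHom.ext fun t => ?_
  have h1 : t = ∏ j, Pi.mulSingle j (t j) := (Finset.univ_prod_mulSingle t).symm
  rw [h1, map_prod, map_prod]
  simp only [h]

/-- the number of simple modules -/
theorem card_simple [IsAlgClosed k] [Finite Q] (C : CRD R Q) (p : ℕ) [hp : Fact p.Prime] [CharP k p]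
    (hU : IsPGroup p R.U) (hpQ : p ∣ Nat.card Q + 1) :
    Nat.card {c : ConjClasses G // ∃ g : G, ConjClasses.mk g = c ∧ (orderOf g).Coprime p} = (Nat.card Q + 1) ^ l := by
  classical
  let iG : Fintype G := Fintype.ofFinite G
  let iQ : Fintype Q := Fintype.ofFinite Q
  have hq0 : ((Nat.card Q + 1 : ℕ) : k) = 0 := (CharP.cast_eq_zero_iff k p _).2 hpQ
  have hQ : ((Nat.card Q : ℕ) : k) = -1 := by
    rw [Nat.cast_add, Nat.cast_one] at hq0
    exact eq_neg_of_add_eq_zero_left hq0
  have hq : ∀ i, ((Nat.card (R.X (S.p i)) : ℕ) : k) = 0 := by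
    intro i
    have h1 : Nat.card (R.X (S.p i)) = Nat.card Q + 1 := by
      have e : Option Q ≃ R.X (S.p i) := Equiv.ofBijective
        (fun c => c.elim 1 (fun c => ⟨C.x i c, C.x_mem i c⟩)) ⟨by
          rintro (_ | c) (_ | c') h
          · rfl
          · exact absurd (congrArg Subtype.val h).symm (C.x_ne i c')
          · exact absurd (congrArg Subtype.val h) (C.x_ne i c)
          · exact congrArg some (C.x_inj i (congrArg Subtype.val h)), by
          rintro ⟨y, hy⟩
          by_cases h1 : y = 1
          · exact ⟨none, Subtype.ext h1.symm⟩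
          · obtain ⟨c, hc⟩ := C.x_surj i y hy h1
            exact ⟨some c, Subtype.ext hc.symm⟩⟩
      rw [← Nat.card_congr e, Finite.card_option]
    rw [h1]; exact hq0
  have hne : NeZero ((Monoid.exponent Q : ℕ) : k) := by
    refine ⟨fun h0 => ?_⟩
    have h1 : p ∣ Monoid.exponent Q := (CharP.cast_eq_zero_iff k p _).1 h0
    have h2 : p ∣ Nat.card Q := h1.trans (Group.exponent_dvd_nat_card)
    have h3 : p ∣ 1 := (Nat.dvd_add_right h2).1 hpQ
    exact hp.out.one_lt.ne' (Nat.dvd_one.1 h3)
  have hcQ : Nat.card (Q →* kˣ) = Nat.card Q := CommGroup.card_monoidHom_of_hasEnoughRootsOfUnity Q k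
  have hfQ : Finite (Q →* kˣ) := Nat.finite_of_card_ne_zero (by rw [hcQ]; exact Nat.card_pos.ne')
  let iF : Fintype (Ix l Q k) := Fintype.ofFinite _
  -- the maximal left ideals
  have hex : ∀ i : Ix l Q k, ∃ m : Submodule (MonoidAlgebra k G) (MonoidAlgebra k G), IsCoatom m ∧
      Wt C (rep k (MonoidAlgebra k G ⧸ m)) (chI i) (laI i) (Submodule.Quotient.mk 1) := by
    intro i
    have hK : ∀ j ∈ {j | i j = some 1}, ∀ c, chI i (Pi.mulSingle j c) = 1 := by
      intro j hj c
      rw [chI_single, show i j = some 1 from hj]; rfl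
    obtain ⟨a, ha⟩ := exists_Wt_alg (C := C) (k := k) hK hq hQ (lam := laI i) (by
      intro j hj
      unfold laI
      rw [show i j = some 1 from hj]; rfl) (by
      intro j hj
      simp only [chI_single]
      unfold laI
      cases hij : i j with
      | none =>
        simp only [Option.isSome_none, Option.getD_none, MonoidHom.one_apply, Units.val_one,
          Finset.sum_const, Finset.card_univ, nsmul_eq_mul, mul_one]
        rw [← Nat.card_eq_fintype_card, hQ]; rfl
      | some ψ =>
        simp only [Option.isSome_some, Option.getD_some, if_true]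
        have h1 : (Units.coeHom k).comp ψ ≠ 1 := by
          intro h0
          apply hj
          change i j = some 1
          rw [hij]
          congr 1
          ext c
          exact congrArg (fun F : Q →* k => F c) h0
        exact (sum_hom_units_eq_zero _ h1).symm)
    exact exists_coatom p hU ha
  choose m hm hW using hex
  have hfdA : FiniteDimensional k (MonoidAlgebra k G) := inferInstance
  have hfd : ∀ m : Submodule (MonoidAlgebra k G) (MonoidAlgebra k G), FiniteDimensional k (MonoidAlgebra k G ⧸ m) :=
    fun m => Module.Finite.of_surjective (m.mkQ.restrictScalars k) m.mkQ_surjective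
  have hsi : ∀ m : Submodule (MonoidAlgebra k G) (MonoidAlgebra k G), IsCoatom m →
      IsSimpleModule (MonoidAlgebra k G) (MonoidAlgebra k G ⧸ m) := fun m hm => isSimpleModule_iff_isCoatom.2 hm
  have hsimple : ∀ i, IsSimpleModule (MonoidAlgebra k G) (MonoidAlgebra k G ⧸ m i) := fun i => hsi _ (hm i)
  have hfdi : ∀ i, FiniteDimensional k (MonoidAlgebra k G ⧸ m i) := fun i => hfd _
  have hmain := BC.card_regular_eq (k := k) p (G := G) (ι := Ix l Q k) (fun i => MonoidAlgebra k G ⧸ m i) ?_ ?_
  · rw [hmain, Nat.card_fun, Finite.card_option, hcQ, Nat.card_eq_fintype_card (α := Fin l), Fintype.card_fin]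
  · intro i j hij
    refine ⟨fun e => hij ?_⟩
    have h1 : e.toLinearMap (Submodule.Quotient.mk 1) ≠ 0 := fun h0 => (hW i).ne (by
      apply e.injective
      rw [map_zero]; exact h0)
    have h2 := (hW i).map e.toLinearMap h1
    obtain ⟨h3, h4⟩ := weight_simple p hU h2 (hW j)
    funext a
    have h5 := congrFun h4 a
    unfold laI at h5
    have h6 : ∀ c, (i a).getD 1 c = (j a).getD 1 c := by
      intro c
      rw [← chI_single, ← chI_single, h3]
    cases hia : i a with
    | none =>
      cases hja : j a with
      | none => rfl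
      | some ψ => rw [hia, hja] at h5; simp at h5
    | some ψ =>
      cases hja : j a with
      | none => rw [hia, hja] at h5; simp at h5
      | some ψ' =>
        rw [hia, hja] at h6
        congr 1
        exact MonoidHom.ext h6
  · intro m' hm'
    have h1 := hsi m' hm'
    have h2 := hfd m'
    have h3 : Nontrivial (MonoidAlgebra k G ⧸ m') := IsSimpleModule.nontrivial (MonoidAlgebra k G) _
    obtain ⟨χ, lam, v, hv⟩ := exists_Wt (ρ := rep k (MonoidAlgebra k G ⧸ m')) p hU hq C
    have hadm := hv.adm hq hQ
    let i : Ix l Q k := fun j => if lam j = 0 then some (χ.comp (MonoidHom.mulSingle (fun _ : Fin l => Q) j)) else none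
    refine ⟨i, ?_⟩
    have h4 : chI i = χ := by
      refine chI_ext fun j c => ?_
      rw [chI_single]
      by_cases hl : lam j = 0
      · simp only [i, if_pos hl]; rfl
      · simp only [i, if_neg hl]
        rcases hadm j with h | ⟨-, h⟩
        · exact absurd h hl
        · rw [h c]; rfl
    have h5 : laI i = lam := by
      funext j
      unfold laI
      by_cases hl : lam j = 0
      · simp only [i, if_pos hl]; rw [hl]; rfl
      · simp only [i, if_neg hl]
        rcases hadm j with h | ⟨h, -⟩
        · exact absurd h hl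
        · rw [h]; rfl
    rw [← h4, ← h5] at hv
    exact iso_of_Wt p hU hv (hW i)

end count

/-- **Curtis-Richen and Brauer**: the number of classes of `p'`-elements is `q ^ l`. -/
theorem card_regular [Finite Q] (C : CRD R Q) (p : ℕ) [hp : Fact p.Prime]
    (hU : IsPGroup p R.U) (hpQ : p ∣ Nat.card Q + 1) :
    Nat.card {c : ConjClasses G // ∃ g : G, ConjClasses.mk g = c ∧ (orderOf g).Coprime p} = (Nat.card Q + 1) ^ l :=
  card_simple (k := AlgebraicClosure (ZMod p)) C p hU hpQ

end Cfsg.Agent.H53.CR
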