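import Cfsg.Agent.H53.CRBase

set_option autoImplicit false

/-!
# Curtis-Richen, part 2: the data on the torus (helper53)
-/

namespace Cfsg.Agent.H53.CR

open Cfsg.Agent.ChevGrp Cfsg.Agent.ChevGrp.RGrp

variable {l n : ℕ}

/-- the torus is a direct product of `l` copies of `Q`, compatible with the minimal parabolic subgroups -/
structure CRD {S : WSys l n} {G : Type*} [Group G] (R : RGrp S G) (Q : Type*) [CommGroup Q] where
  h : (Fin l → Q) →* G
  h_inj : Function.Injective h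
  h_range : h.range = R.H
  x : Fin l → Q → G
  x_mem : ∀ i c, x i c ∈ R.X (S.p i)
  x_ne : ∀ i c, x i c ≠ 1
  x_inj : ∀ i, Function.Injective (x i)
  x_surj : ∀ i, ∀ y ∈ R.X (S.p i), y ≠ 1 → ∃ c, y = x i c
  x_nn : ∀ i c, ∃ a ∈ R.X (S.p i), ∃ b ∈ R.X (S.p i),
    R.nn i * x i c * R.nn i = a * R.nn i * h (Pi.mulSingle i c) * b
  nn_sq : ∀ i, ∃ c, R.nn i * R.nn i = h (Pi.mulSingle i c)
  conj_nn : ∀ L j k, S.wd L (S.p j) = S.p k →
    ∃ c, R.nd L * R.nn j * (R.nd L)⁻¹ * (R.nn k)⁻¹ = h (Pi.mulSingle k c)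
  nn_h : ∀ i t, ∃ c, R.nn i * h t * (R.nn i)⁻¹ * (h t)⁻¹ = h (Pi.mulSingle i c)
  posK : ∀ K : Set (Fin l), ∀ L : List (Fin l), (∀ j ∈ L, j ∈ K) → ∀ i ∉ K, S.Pos (S.wd L (S.p i))
  top : R.Grp = ⊤

namespace CRD

variable {S : WSys l n} {G : Type*} [Group G] {R : RGrp S G} {Q : Type*} [CommGroup Q] (C : CRD R Q)

theorem h_mem (t : Fin l → Q) : C.h t ∈ R.H := by rw [← C.h_range]; exact ⟨t, rfl⟩

theorem mem_H {g : G} : g ∈ R.H ↔ ∃ t, C.h t = g := by rw [← C.h_range]; exact Iff.rfl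

/-- the subgroup of the torus generated by the `Hᵢ`, `i ∈ K` -/
def HK (K : Set (Fin l)) : Subgroup G := ⨆ i ∈ K, (C.h.comp (MonoidHom.mulSingle (fun _ => Q) i)).range

variable {C} {K : Set (Fin l)}

theorem single_mem {i : Fin l} (hi : i ∈ K) (c : Q) : C.h (Pi.mulSingle i c) ∈ C.HK K := by
  have h1 : C.h (Pi.mulSingle i c) ∈ (C.h.comp (MonoidHom.mulSingle (fun _ => Q) i)).range := ⟨c, rfl⟩
  exact (le_iSup₂ (f := fun (i : Fin l) (_ : i ∈ K) => (C.h.comp (MonoidHom.mulSingle (fun _ => Q) i)).range) i hi) h1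

theorem HK_le {P : Subgroup G} (h : ∀ i ∈ K, ∀ c, C.h (Pi.mulSingle i c) ∈ P) : C.HK K ≤ P := by
  refine iSup₂_le fun i hi => ?_
  rintro _ ⟨c, rfl⟩
  exact h i hi c

theorem HK_le_H : C.HK K ≤ R.H := HK_le fun _ _ _ => C.h_mem _

theorem nn_HK {i : Fin l} (hi : i ∈ K) : ∀ g ∈ C.HK K, R.nn i * g * (R.nn i)⁻¹ ∈ C.HK K := by
  intro g hg
  obtain ⟨t, rfl⟩ := C.mem_H.1 (HK_le_H hg)
  obtain ⟨c, hc⟩ := C.nn_h i t
  have : R.nn i * C.h t * (R.nn i)⁻¹ = C.h (Pi.mulSingle i c) * C.h t := by rw [← hc]; group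
  rw [this]
  exact mul_mem (single_mem hi c) hg

theorem nn_HK' {i : Fin l} (hi : i ∈ K) : ∀ g ∈ C.HK K, (R.nn i)⁻¹ * g * R.nn i ∈ C.HK K := by
  intro g hg
  obtain ⟨c, hc⟩ := C.nn_sq i
  have h1 : R.nn i * R.nn i ∈ C.HK K := by rw [hc]; exact single_mem hi c
  have h2 := mul_mem (mul_mem (inv_mem h1) (nn_HK hi g hg)) h1
  have e : (R.nn i * R.nn i)⁻¹ * (R.nn i * g * (R.nn i)⁻¹) * (R.nn i * R.nn i) = (R.nn i)⁻¹ * g * R.nn i := by group
  rwa [e] at h2

theorem nd_HK' (L : List (Fin l)) (hL : ∀ j ∈ L, j ∈ K) : ∀ g ∈ C.HK K, (R.nd L)⁻¹ * g * R.nd L ∈ C.HK K := by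
  induction L with
  | nil => intro g hg; simpa using hg
  | cons i L ih =>
    intro g hg
    have h1 := ih (fun j hj => hL j (List.mem_cons_of_mem _ hj)) _ (nn_HK' (hL i List.mem_cons_self) g hg)
    rw [nd_cons]
    have e : (R.nn i * R.nd L)⁻¹ * g * (R.nn i * R.nd L) = (R.nd L)⁻¹ * ((R.nn i)⁻¹ * g * R.nn i) * R.nd L := by group
    rw [e]; exact h1

/-- a word in `K` can be shortened modulo `H_K` to a reduced word in `K` -/
theorem exists_reducedK (L : List (Fin l)) (hL : ∀ j ∈ L, j ∈ K) :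
    ∃ L' : List (Fin l), (∀ j ∈ L', j ∈ K) ∧ L'.length = S.N (S.wd L) ∧ S.wd L' = S.wd L ∧
    ∃ h ∈ C.HK K, R.nd L = R.nd L' * h := by
  induction L using List.reverseRecOn with
  | nil => exact ⟨[], fun j hj => by simp at hj, by rw [S.wd_nil, S.N_one]; rfl, rfl, 1, one_mem _, by simp⟩
  | append_singleton M j ih =>
    have hjK : j ∈ K := hL j (by simp)
    obtain ⟨M', h0, h1, h2, h, hh, h3⟩ := ih (fun a ha => hL a (by simp [ha]))
    have e1 : S.wd (M ++ [j]) = S.wd M' * S.w j := by rw [S.wd_append, S.wd_cons, S.wd_nil, mul_one, h2]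
    have e2 : R.nd (M ++ [j]) = R.nd M' * R.nn j * ((R.nn j)⁻¹ * h * R.nn j) := by
      rw [nd_append, nd_cons, nd_nil, h3]; group
    by_cases hp : S.Pos (S.wd M' (S.p j))
    · refine ⟨M' ++ [j], ?_, ?_, ?_, _, nn_HK' hjK _ hh, ?_⟩
      · intro a ha
        rw [List.mem_append, List.mem_singleton] at ha
        rcases ha with ha | rfl
        · exact h0 a ha
        · exact hjK
      · rw [List.length_append, h1, e1, S.N_pos _ (S.wd_mem _) j hp, h2]; rfl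
      · rw [e1, S.wd_append, S.wd_cons, S.wd_nil, mul_one]
      · rw [e2, nd_append, nd_cons, nd_nil, mul_one]
    · obtain ⟨L₁, i, L₂, h4, h5⟩ := S.exists_split M' _ (S.pos_p j) hp
      have hiK : i ∈ K := h0 i (by rw [h4]; simp)
      have hL1 : ∀ a ∈ L₁, a ∈ K := fun a ha => h0 a (by rw [h4]; simp [ha])
      have hL2 : ∀ a ∈ L₂, a ∈ K := fun a ha => h0 a (by rw [h4]; simp [ha])
      have h6 := S.conj_w (S.wd L₂) (S.wd_mem L₂) j i h5
      obtain ⟨c, h7⟩ := C.conj_nn L₂ j i h5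
      have e3 : S.wd (L₁ ++ L₂) = S.wd M' * S.w j := by
        rw [h4, S.wd_append, S.wd_append, S.wd_cons]
        rw [mul_inv_eq_iff_eq_mul] at h6
        rw [mul_assoc, mul_assoc, h6, ← mul_assoc (S.w i), S.w_mul_w, one_mul]
      refine ⟨L₁ ++ L₂, ?_, ?_, ?_, ?_⟩
      · intro a ha
        rcases List.mem_append.1 ha with ha | ha
        · exact hL1 a ha
        · exact hL2 a ha
      · have := S.N_neg (S.wd_mem M') hp
        rw [e1]
        have h8 : M'.length = L₁.length + L₂.length + 1 := by rw [h4]; simp; omega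
        rw [← h2] at h1
        rw [List.length_append]; omega
      · rw [e3, e1]
      · set k := R.nd L₂ * R.nn j * (R.nd L₂)⁻¹ * (R.nn i)⁻¹ with hk
        have hk' : k ∈ C.HK K := by rw [h7]; exact single_mem hiK c
        have e4 : R.nd M' * R.nn j = R.nd (L₁ ++ L₂) *
            ((R.nd L₂)⁻¹ * (R.nn i * k * (R.nn i)⁻¹ * (R.nn i * R.nn i)) * R.nd L₂) := by
          rw [h4, nd_append, nd_append, nd_cons, hk]; group
        refine ⟨(R.nd L₂)⁻¹ * (R.nn i * k * (R.nn i)⁻¹ * (R.nn i * R.nn i)) * R.nd L₂ * ((R.nn j)⁻¹ * h * R.nn j),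
          mul_mem ?_ (nn_HK' hjK _ hh), ?_⟩
        · obtain ⟨c', hc'⟩ := C.nn_sq i
          have h9 : R.nn i * k * (R.nn i)⁻¹ * (R.nn i * R.nn i) ∈ C.HK K :=
            mul_mem (nn_HK hiK k hk') (by rw [hc']; exact single_mem hiK c')
          exact nd_HK' L₂ hL2 _ h9
        · rw [e2, e4, mul_assoc]

variable (C K) in
/-- the subgroup generated by `H_K` and the `nn i`, `i ∈ K` -/
def NK : Subgroup G := C.HK K ⊔ Subgroup.closure (R.nn '' K)

theorem nd_mem_NK (L : List (Fin l)) (hL : ∀ j ∈ L, j ∈ K) : R.nd L ∈ C.NK K := by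
  induction L with
  | nil => exact one_mem _
  | cons i L ih =>
    rw [nd_cons]
    exact mul_mem (Subgroup.mem_sup_right (Subgroup.subset_closure ⟨i, hL i List.mem_cons_self, rfl⟩))
      (ih fun j hj => hL j (List.mem_cons_of_mem _ hj))

/-- the elements of `N_K` -/
theorem exists_ndK {g : G} (hg : g ∈ C.NK K) : ∃ L : List (Fin l), (∀ j ∈ L, j ∈ K) ∧ ∃ h ∈ C.HK K, g = R.nd L * h := by
  have hcl : g ∈ Subgroup.closure ((C.HK K : Set G) ∪ R.nn '' K) := by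
    rw [Subgroup.closure_union, Subgroup.closure_eq]; exact hg
  clear hg
  induction hcl using Subgroup.closure_induction_left with
  | one => exact ⟨[], by simp, 1, one_mem _, by simp⟩
  | mul_left y hy z hz ih =>
    obtain ⟨L, hL, h, hh, rfl⟩ := ih
    rcases hy with hy | ⟨i, hi, rfl⟩
    · exact ⟨L, hL, (R.nd L)⁻¹ * y * R.nd L * h, mul_mem (nd_HK' L hL y hy) hh, by group⟩
    · refine ⟨i :: L, ?_, h, hh, by rw [nd_cons, mul_assoc]⟩
      intro j hj
      rcases List.mem_cons.1 hj with rfl | hj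
      · exact hi
      · exact hL j hj
  | inv_mul_cancel y hy z hz ih =>
    obtain ⟨L, hL, h, hh, rfl⟩ := ih
    rcases hy with hy | ⟨i, hi, rfl⟩
    · exact ⟨L, hL, (R.nd L)⁻¹ * y⁻¹ * R.nd L * h, mul_mem (nd_HK' L hL _ (inv_mem hy)) hh, by group⟩
    · obtain ⟨c, hc⟩ := C.nn_sq i
      have h1 : R.nn i * R.nn i ∈ C.HK K := by rw [hc]; exact single_mem hi c
      refine ⟨i :: L, ?_, (R.nd L)⁻¹ * (R.nn i * (R.nn i * R.nn i)⁻¹ * (R.nn i)⁻¹)⁻¹⁻¹ * R.nd L * h, ?_, ?_⟩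
      · intro j hj
        rcases List.mem_cons.1 hj with rfl | hj
        · exact hi
        · exact hL j hj
      · refine mul_mem ?_ hh
        refine nd_HK' L hL _ ?_
        rw [inv_inv]
        exact nn_HK hi _ (inv_mem h1)
      · rw [nd_cons, inv_inv]; group

theorem NK_le_N : C.NK K ≤ R.N := by
  refine sup_le (HK_le_H.trans R.H_le_N) ?_
  rw [Subgroup.closure_le]
  rintro _ ⟨i, -, rfl⟩; exact R.nn_mem_N i

/-- `N_K ∩ H = H_K` -/
theorem NK_inf_H {g : G} (hg : g ∈ C.NK K) (hgH : g ∈ R.H) : g ∈ C.HK K := by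
  obtain ⟨L, hL, h, hh, rfl⟩ := exists_ndK hg
  obtain ⟨L', hL', h1, h2, h', hh', h3⟩ := exists_reducedK (C := C) L hL
  have h4 : R.Act (R.nd L * h) 1 := act_H hgH
  have h5 := ((act_nd (R := R) L).mul (act_H (HK_le_H hh))).unique h4
  rw [mul_one] at h5
  rw [h5, S.N_one, List.length_eq_zero_iff] at h1
  rw [h3, h1, nd_nil, one_mul]
  exact mul_mem hh' hh

/-- an element of `N_K H` acts as a word in `K` -/
theorem act_NK {g : G} (hg : g ∈ C.NK K) : ∃ L : List (Fin l), (∀ j ∈ L, j ∈ K) ∧ R.Act g (S.wd L) := by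
  obtain ⟨L, hL, h, hh, rfl⟩ := exists_ndK hg
  refine ⟨L, hL, ?_⟩
  have := (act_nd (R := R) L).mul (act_H (HK_le_H hh))
  rwa [mul_one] at this

theorem H_comm {a b : G} (ha : a ∈ R.H) (hb : b ∈ R.H) (C : CRD R Q) : a * b = b * a := by
  obtain ⟨s, rfl⟩ := C.mem_H.1 ha
  obtain ⟨t, rfl⟩ := C.mem_H.1 hb
  rw [← map_mul, ← map_mul, mul_comm]

end CRD

end Cfsg.Agent.H53.CR
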