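import Cfsg.Agent.H53.CRAlg

set_option autoImplicit false
set_option linter.unusedSectionVars false

/-!
# Curtis-Richen, part 7: all admissible weights occur (helper53)
-/

namespace Cfsg.Agent.H53.CR

open Cfsg.Agent.ChevGrp Cfsg.Agent.ChevGrp.RGrp MonoidAlgebra

variable {l n : ℕ} {S : WSys l n} {G : Type*} [Group G] [Finite G] {R : RGrp S G} {Q : Type*} [CommGroup Q]

attribute [local instance] ftSub

variable {k : Type*} [Field k]

section phi

/-- the element of the group algebra of a function -/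
noncomputable def aphi (φ : G → k) : MonoidAlgebra k G :=
  letI := Fintype.ofFinite G
  ∑ g : G, single g (φ g⁻¹)

theorem aphi_coeff (φ : G → k) (g : G) : (aphi φ).coeff g = φ g⁻¹ := by
  classical
  let := Fintype.ofFinite G
  unfold aphi
  rw [MonoidAlgebra.coeff_sum, Finsupp.finsetSum_apply, Finset.sum_eq_single g]
  · rw [MonoidAlgebra.coeff_single, Finsupp.single_eq_same]
  · intro b _ hb
    rw [MonoidAlgebra.coeff_single, Finsupp.single_eq_of_ne (Ne.symm hb)]
  · intro h; exact absurd (Finset.mem_univ _) h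

theorem aphi_inj {φ φ' : G → k} (h : aphi φ = aphi φ') : φ = φ' := by
  funext g
  have := congrArg (fun a : MonoidAlgebra k G => a.coeff g⁻¹) h
  simp only [aphi_coeff, inv_inv] at this
  exact this

theorem rep_aphi (φ : G → k) (g : G) : rep k (MonoidAlgebra k G) g (aphi φ) = aphi (fun x => φ (x * g)) := by
  let := Fintype.ofFinite G
  rw [rep_apply]
  unfold aphi
  rw [Finset.smul_sum]
  refine Fintype.sum_equiv (Equiv.mulLeft g) _ _ fun x => ?_
  rw [smul_eq_mul, single_mul_single, one_mul]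
  change _ = single (g * x) (φ ((g * x)⁻¹ * g))
  congr 2
  group

theorem aphi_sum {ι : Type*} (s : Finset ι) (φ : ι → G → k) : aphi (fun x => ∑ i ∈ s, φ i x) = ∑ i ∈ s, aphi (φ i) := by
  apply MonoidAlgebra.coeff_injective
  ext g
  rw [aphi_coeff, MonoidAlgebra.coeff_sum, Finsupp.finsetSum_apply]
  exact Finset.sum_congr rfl fun i _ => (aphi_coeff _ _).symm

theorem aphi_smul (c : k) (φ : G → k) : aphi (fun x => c * φ x) = c • aphi φ := by
  let := Fintype.ofFinite G
  unfold aphi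
  rw [Finset.smul_sum]
  exact Finset.sum_congr rfl fun g _ => by rw [MonoidAlgebra.smul_single']

theorem T_aphi (φ : G → k) (i : Fin l) :
    T (rep k (MonoidAlgebra k G)) R i (aphi φ) = aphi (fun x => ∑ y : R.X (S.p i), φ (x * y * R.nn i)) := by
  unfold T sm
  rw [aphi_sum]
  refine Finset.sum_congr rfl fun y _ => ?_
  rw [rep_aphi, rep_aphi]

end phi

section nc

variable (C : CRD R Q)

/-- the `N`-component -/
noncomputable def nc (C : CRD R Q) (g : G) : G := (exists_VNU C.top g).choose_spec.2.choose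

theorem nc_spec (g : G) : nc C g ∈ R.N ∧ ∃ y ∈ R.V, ∃ u ∈ R.U, g = y * nc C g * u := by
  have h := (exists_VNU C.top g).choose_spec
  obtain ⟨u, hu, e⟩ := h.2.choose_spec.2
  exact ⟨h.2.choose_spec.1, _, h.1, u, hu, e⟩

theorem nc_eq {y m u : G} (hy : y ∈ R.V) (hm : m ∈ R.N) (hu : u ∈ R.U) : nc C (y * m * u) = m := by
  obtain ⟨h1, y', hy', u', hu', e⟩ := nc_spec C (y * m * u)
  generalize nc C (y * m * u) = z at h1 e ⊢
  refine (VNU_unique (y := y'⁻¹ * y) (u := u' * u⁻¹) (mul_mem (inv_mem hy') hy) (mul_mem hu' (inv_mem hu)) hm h1 ?_).symm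
  have : y'⁻¹ * y * m = y'⁻¹ * (y * m * u) * u⁻¹ := by group
  rw [this, e]; group

variable {C}

/-- the function on `N` -/
noncomputable def psi (C : CRD R Q) (K : Set (Fin l)) (χ : (Fin l → Q) →* kˣ) (m : G) : k :=
  letI := Classical.propDecidable (∃ t, ∃ s ∈ C.NK K, m = s * C.h t)
  if h : ∃ t, ∃ s ∈ C.NK K, m = s * C.h t then (χ h.choose : k) else 0

variable {K : Set (Fin l)} {χ : (Fin l → Q) →* kˣ}

theorem chi_HK (hK : ∀ i ∈ K, ∀ c, χ (Pi.mulSingle i c) = 1) {t : Fin l → Q} (ht : C.h t ∈ C.HK K) : χ t = 1 := by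
  have h1 : C.HK K ≤ χ.ker.map C.h := CRD.HK_le fun i hi c => ⟨_, hK i hi c, rfl⟩
  obtain ⟨t', h2, h3⟩ := h1 ht
  rw [← C.h_inj h3]; exact h2

theorem psi_mul (hK : ∀ i ∈ K, ∀ c, χ (Pi.mulSingle i c) = 1) {s : G} (hs : s ∈ C.NK K) (t : Fin l → Q) :
    psi C K χ (s * C.h t) = (χ t : k) := by
  have h : ∃ t', ∃ s' ∈ C.NK K, s * C.h t = s' * C.h t' := ⟨t, s, hs, rfl⟩
  unfold psi
  rw [dif_pos h]
  obtain ⟨s', hs', e⟩ := h.choose_spec
  set t' := h.choose with ht'
  have h1 : s'⁻¹ * s = C.h (t' * t⁻¹) := by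
    rw [map_mul, map_inv]
    have : s = s' * C.h t' * (C.h t)⁻¹ := by rw [← e]; group
    rw [this]; group
  have h2 := CRD.NK_inf_H (mul_mem (inv_mem hs') hs) (by rw [h1]; exact C.h_mem _)
  rw [h1] at h2
  have h3 := chi_HK hK h2
  rw [map_mul, map_inv, mul_inv_eq_one] at h3
  rw [h3]

theorem psi_eq_zero {m : G} (h : ¬ ∃ t, ∃ s ∈ C.NK K, m = s * C.h t) : psi C K χ m = (0 : k) := by
  unfold psi
  rw [dif_neg h]

theorem psi_mul_h (hK : ∀ i ∈ K, ∀ c, χ (Pi.mulSingle i c) = 1) (m : G) (t : Fin l → Q) :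
    psi C K χ (m * C.h t) = (χ t : k) * psi C K χ m := by
  by_cases h : ∃ t', ∃ s ∈ C.NK K, m = s * C.h t'
  · obtain ⟨t', s, hs, rfl⟩ := h
    rw [mul_assoc, ← map_mul, psi_mul hK hs, psi_mul hK hs, map_mul, mul_comm, Units.val_mul]
  · rw [psi_eq_zero h, psi_eq_zero, mul_zero]
    rintro ⟨t', s, hs, e⟩
    refine h ⟨t' * t⁻¹, s, hs, ?_⟩
    rw [map_mul, map_inv, ← mul_assoc, ← e]; group

/-- elements of `N_K H` act as words in `K` -/
theorem act_of_psi {m : G} (h : ∃ t, ∃ s ∈ C.NK K, m = s * C.h t) :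
    ∃ L : List (Fin l), (∀ j ∈ L, j ∈ K) ∧ R.Act m (S.wd L) := by
  obtain ⟨t, s, hs, rfl⟩ := h
  obtain ⟨L, hL, hA⟩ := CRD.act_NK hs
  refine ⟨L, hL, ?_⟩
  have := hA.mul (act_H (C.h_mem t))
  rwa [mul_one] at this

theorem psi_zero_of_not_pos {m : G} {w : Equiv.Perm (Fin n)} (hw : R.Act m w) {i : Fin l} (hi : i ∉ K)
    (hp : ¬ S.Pos (w (S.p i))) : psi C K χ m = (0 : k) := by
  refine psi_eq_zero fun h => hp ?_
  obtain ⟨L, hL, hA⟩ := act_of_psi h
  rw [hw.unique hA]
  exact C.posK K L hL i hi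

/-- right multiplication by `nn i`, `i ∈ K` -/
theorem psi_nn (hK : ∀ i ∈ K, ∀ c, χ (Pi.mulSingle i c) = 1) {i : Fin l} (hi : i ∈ K) (m : G) :
    psi C K χ (m * R.nn i) = psi C K χ m := by
  have hnn : R.nn i ∈ C.NK K := Subgroup.mem_sup_right (Subgroup.subset_closure ⟨i, hi, rfl⟩)
  by_cases h : ∃ t', ∃ s ∈ C.NK K, m = s * C.h t'
  · obtain ⟨t, s, hs, rfl⟩ := h
    have e : s * C.h t * R.nn i = (s * R.nn i) * C.h (tw C i t) := by rw [tw_spec]; group
    rw [e, psi_mul hK (mul_mem hs hnn), psi_mul hK hs]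
    obtain ⟨c, hc⟩ := C.nn_h i (tw C i t)
    rw [tw_spec] at hc
    have h1 : C.h t = C.h (Pi.mulSingle i c * tw C i t) := by
      rw [map_mul, ← hc, tw_spec]; group
    have h2 := C.h_inj h1
    rw [h2, map_mul, hK i hi, one_mul, ← h2]
  · rw [psi_eq_zero h, psi_eq_zero]
    rintro ⟨t, s, hs, e⟩
    obtain ⟨t', ht'⟩ := C.mem_H.1 (R.nn_H i _ (C.h_mem t))
    refine h ⟨t', s * (R.nn i)⁻¹, mul_mem hs (inv_mem hnn), ?_⟩
    have e2 : m = s * C.h t * (R.nn i)⁻¹ := by rw [← e]; group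
    rw [e2, ht']; group

variable (C K χ) in
/-- the function on `G` -/
noncomputable def phi (g : G) : k := psi C K χ (nc C g)

theorem phi_eq {y m u : G} (hy : y ∈ R.V) (hm : m ∈ R.N) (hu : u ∈ R.U) :
    phi C K χ (y * m * u) = (psi C K χ m : k) := by
  unfold phi; rw [nc_eq C hy hm hu]

theorem phi_V {y : G} (hy : y ∈ R.V) (g : G) : phi C K χ (y * g) = (phi C K χ g : k) := by
  obtain ⟨h1, y', hy', u, hu, e⟩ := nc_spec C g
  generalize nc C g = z at h1 e
  rw [e, ← mul_assoc, ← mul_assoc, phi_eq (mul_mem hy hy') h1 hu, phi_eq hy' h1 hu]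

theorem phi_U {u : G} (hu : u ∈ R.U) (g : G) : phi C K χ (g * u) = (phi C K χ g : k) := by
  obtain ⟨h1, y', hy', u', hu', e⟩ := nc_spec C g
  generalize nc C g = z at h1 e
  rw [e, mul_assoc (y' * z), phi_eq hy' h1 (mul_mem hu' hu), phi_eq hy' h1 hu']

theorem phi_N {m : G} (hm : m ∈ R.N) : phi C K χ m = (psi C K χ m : k) := by
  have := phi_eq (C := C) (K := K) (χ := χ) (k := k) (one_mem R.V) hm (one_mem R.U)
  rwa [one_mul, mul_one] at this

theorem phi_h (hK : ∀ i ∈ K, ∀ c, χ (Pi.mulSingle i c) = 1) (g : G) (t : Fin l → Q) :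
    phi C K χ (g * C.h t) = (χ t : k) * phi C K χ g := by
  obtain ⟨h1, y', hy', u, hu, e⟩ := nc_spec C g
  generalize nc C g = z at h1 e
  have e2 : g * C.h t = y' * (z * C.h t) * ((C.h t)⁻¹ * u * C.h t) := by rw [e]; group
  rw [e2, phi_eq hy' (mul_mem h1 (R.H_le_N (C.h_mem t))) (H_norm_gen' S.Pos _ (C.h_mem t) u hu), psi_mul_h hK, e,
    phi_eq hy' h1 hu]

theorem aphi_BE (hK : ∀ i ∈ K, ∀ c, χ (Pi.mulSingle i c) = 1) :
    BE C (rep k (MonoidAlgebra k G)) χ (aphi (phi C K χ)) := by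
  constructor
  · intro u hu
    rw [rep_aphi]
    congr 1
    funext x
    exact phi_U hu x
  · intro t
    rw [rep_aphi, ← aphi_smul]
    congr 1
    funext x
    exact phi_h hK x t

/-- all admissible weights occur in the group algebra -/
theorem exists_Wt_alg [Fintype Q] (hK : ∀ i ∈ K, ∀ c, χ (Pi.mulSingle i c) = 1)
    (hq : ∀ i, ((Nat.card (R.X (S.p i)) : ℕ) : k) = 0) (hQ : ((Nat.card Q : ℕ) : k) = -1)
    {lam : Fin l → k} (h1 : ∀ i ∈ K, lam i = 0) (h2 : ∀ i ∉ K, lam i = ∑ c : Q, (χ (Pi.mulSingle i c) : k)) :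
    ∃ a, Wt C (rep k (MonoidAlgebra k G)) χ lam a := by
  classical
  refine ⟨aphi (phi C K χ), ?_, aphi_BE hK, ?_⟩
  · intro h0
    have h3 := congrArg (fun a : MonoidAlgebra k G => a.coeff 1) h0
    simp only [aphi_coeff, inv_one] at h3
    rw [phi_N (one_mem _)] at h3
    have h4 := psi_mul (C := C) (k := k) hK (one_mem (C.NK K)) 1
    rw [map_one, mul_one, map_one, Units.val_one] at h4
    rw [h4] at h3
    exact one_ne_zero h3
  · intro i
    rw [T_aphi, ← aphi_smul]
    congr 1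
    -- both sides are invariant under `U` on the right and `V` on the left
    have hBE := T_BE (aphi_BE (C := C) (k := k) hK) i
    rw [T_aphi] at hBE
    set F : G → k := fun x => ∑ y : R.X (S.p i), phi C K χ (x * y * R.nn i) with hF
    have hFU : ∀ u ∈ R.U, ∀ x, F (x * u) = F x := by
      intro u hu x
      have h3 := hBE.1 u hu
      rw [rep_aphi] at h3
      exact congrFun (aphi_inj h3) x
    have hFV : ∀ y ∈ R.V, ∀ x, F (y * x) = F x := by
      intro y hy x
      simp only [hF]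
      refine Finset.sum_congr rfl fun z _ => ?_
      rw [← phi_V hy (x * z * R.nn i)]
      congr 1
      group
    funext g
    obtain ⟨hm, y', hy', u, hu, e⟩ := nc_spec C g
    generalize nc C g = m at hm e
    rw [e, hFU u hu, hFV y' hy', phi_U hu, phi_V hy']
    clear e hy' hu y' u g
    obtain ⟨w, hw⟩ := exists_act hm
    simp only [hF]
    by_cases hp : S.Pos (w (S.p i))
    · -- split off `y = 1`
      rw [← Finset.add_sum_erase _ _ (Finset.mem_univ (1 : R.X (S.p i)))]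
      have h3 : ∑ y ∈ Finset.univ.erase (1 : R.X (S.p i)), phi C K χ (m * y * R.nn i) =
          ∑ c : Q, (χ (Pi.mulSingle i c) : k) * psi C K χ m := by
        symm
        refine Finset.sum_bij (fun c _ => (⟨C.x i c, C.x_mem i c⟩ : R.X (S.p i))) ?_ ?_ ?_ ?_
        · intro c _
          rw [Finset.mem_erase]
          exact ⟨fun h => C.x_ne i c (congrArg Subtype.val h), Finset.mem_univ _⟩
        · intro c _ c' _ h
          exact C.x_inj i (congrArg Subtype.val h)
        · intro y hy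
          obtain ⟨c, hc⟩ := C.x_surj i y y.2 (fun h => (Finset.mem_erase.1 hy).1 (Subtype.ext h))
          exact ⟨c, Finset.mem_univ _, Subtype.ext hc.symm⟩
        · intro c _
          obtain ⟨a, ha, b, hb, e⟩ := C.x_nn i c
          have h4 := (act_nn (R := R) i).conj' ha
          rw [S.w_inv, S.w_p] at h4
          have h5 := hw.conj h4
          rw [S.W_neg hw.1] at h5
          have h6 := R.X_le_V (by rw [S.pos_neg_iff]; simpa using hp) h5
          have e2 : m * C.x i c * R.nn i =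
              (m * ((R.nn i)⁻¹ * a * R.nn i) * m⁻¹) * (m * C.h (Pi.mulSingle i c)) * b := by
            have e3 : m * C.x i c * R.nn i = m * (R.nn i)⁻¹ * (R.nn i * C.x i c * R.nn i) := by group
            rw [e3, e]; group
          change _ = phi C K χ (m * C.x i c * R.nn i)
          rw [e2, phi_eq h6 (mul_mem hm (R.H_le_N (C.h_mem _))) (R.X_le_U (S.pos_p i) hb), psi_mul_h hK]
      have h4 : phi C K χ (m * ((1 : R.X (S.p i)) : G) * R.nn i) = (psi C K χ (m * R.nn i) : k) := by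
        rw [Subgroup.coe_one, mul_one, phi_N (mul_mem hm (R.nn_mem_N i))]
      rw [h3, h4, ← Finset.sum_mul, phi_N hm]
      by_cases hi : i ∈ K
      · rw [psi_nn hK hi, h1 i hi, Finset.sum_congr rfl fun c _ => by rw [hK i hi c], Finset.sum_const,
          Finset.card_univ, ← Nat.card_eq_fintype_card, Units.val_one, nsmul_eq_mul, mul_one, hQ]
        ring
      · have h5 : ¬ S.Pos ((w * S.w i) (S.p i)) := by
          rw [Equiv.Perm.mul_apply, S.w_p, S.W_neg hw.1, S.pos_neg_iff]; simpa using hp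
        rw [psi_zero_of_not_pos (hw.mul (act_nn i)) hi h5, h2 i hi, zero_add]
    · have h3 : ∀ y : R.X (S.p i), phi C K χ (m * y * R.nn i) = (phi C K χ (m * R.nn i) : k) := by
        intro y
        have h4 := R.X_le_V hp (hw.conj y.2)
        have e : m * y * R.nn i = (m * y * m⁻¹) * (m * R.nn i) := by group
        rw [e, phi_V h4]
      rw [Finset.sum_congr rfl fun y _ => h3 y, Finset.sum_const, Finset.card_univ, ← Nat.card_eq_fintype_card,
        nsmul_eq_mul, hq, zero_mul, phi_N hm]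
      by_cases hi : i ∈ K
      · rw [h1 i hi, zero_mul]
      · rw [psi_zero_of_not_pos hw hi hp, mul_zero]

end nc

end Cfsg.Agent.H53.CR
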