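import Mathlib

set_option autoImplicit false

/-!
# Curtis-Richen, part 3: fixed vectors of `p`-groups, invariant functionals, common eigenvectors (helper53)
-/

namespace Cfsg.Agent.H53.CR

/-- a `p`-group acting on a nonzero space in characteristic `p` fixes a nonzero vector -/
theorem exists_fixed {k P W : Type*} [Field k] [Group P] [Finite P] [AddCommGroup W] [Module k W] [Nontrivial W]
    (p : ℕ) [hp : Fact p.Prime] [CharP k p] (hP : IsPGroup p P) (ρ : P →* Module.End k W) :
    ∃ w : W, w ≠ 0 ∧ ∀ g, ρ g w = w := by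
  let ialg : Algebra (ZMod p) k := ZMod.algebra k p
  let imod : Module (ZMod p) W := Module.compHom W (algebraMap (ZMod p) k)
  obtain ⟨w0, hw0⟩ := exists_ne (0 : W)
  let E : Submodule (ZMod p) W := Submodule.span (ZMod p) (Set.range fun g => ρ g w0)
  have hst : ∀ g, ∀ w ∈ E, ρ g w ∈ E := by
    intro g w hw
    refine Submodule.span_induction (p := fun w _ => ρ g w ∈ E) ?_ ?_ ?_ ?_ hw
    · rintro _ ⟨g', rfl⟩
      have : ρ g (ρ g' w0) = ρ (g * g') w0 := by rw [map_mul]; rfl
      change ρ g (ρ g' w0) ∈ E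
      rw [this]
      exact Submodule.subset_span ⟨g * g', rfl⟩
    · rw [map_zero]; exact E.zero_mem
    · intro a b _ _ ha hb
      rw [map_add]; exact E.add_mem ha hb
    · intro c a _ ha
      have : ρ g (c • a) = c • ρ g a := by
        change ρ g ((algebraMap (ZMod p) k c) • a) = (algebraMap (ZMod p) k c) • ρ g a
        rw [map_smul]
      rw [this]; exact E.smul_mem c ha
  have hfd : Module.Finite (ZMod p) E := Module.Finite.span_of_finite (ZMod p) (Set.finite_range _)
  have hfin : Finite E := Module.finite_of_finite (ZMod p)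
  let iact : MulAction P E :=
    { smul := fun g e => ⟨ρ g e, hst g e e.2⟩
      one_smul := fun e => Subtype.ext (by change ρ 1 (e : W) = e; rw [map_one]; rfl)
      mul_smul := fun g g' e => Subtype.ext (by change ρ (g * g') (e : W) = ρ g (ρ g' e); rw [map_mul]; rfl) }
  have hw0E : w0 ∈ E := Submodule.subset_span ⟨1, by change ρ 1 w0 = w0; rw [map_one]; rfl⟩
  have hcard : p ∣ Nat.card E := by
    have h1 : addOrderOf (⟨w0, hw0E⟩ : E) = p := by
      refine addOrderOf_eq_prime ?_ ?_
      · apply Subtype.ext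
        change p • w0 = 0
        have : (p : k) • w0 = 0 := by rw [CharP.cast_eq_zero, zero_smul]
        rw [← this]
        exact (Nat.cast_smul_eq_nsmul k p w0).symm
      · intro h
        exact hw0 (congrArg Subtype.val h)
    exact (dvd_of_eq h1.symm).trans (addOrderOf_dvd_natCard _)
  obtain ⟨b, hb, hne⟩ := hP.exists_fixed_point_of_prime_dvd_card_of_fixed_point (α := E) hcard (a := 0) (by
    intro g
    apply Subtype.ext
    change ρ g ((0 : E) : W) = ((0 : E) : W)
    rw [Submodule.coe_zero, map_zero])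
  refine ⟨b, fun h => hne (Subtype.ext h.symm), fun g => congrArg Subtype.val (hb g)⟩

/-- a proper submodule of a representation of a `p`-group is killed by a nonzero invariant functional -/
theorem exists_functional {k P W : Type*} [Field k] [Group P] [Finite P] [AddCommGroup W] [Module k W]
    (p : ℕ) [hp : Fact p.Prime] [CharP k p] (hP : IsPGroup p P) (ρ : P →* Module.End k W) (N : Submodule k W)
    (hN : N ≠ ⊤) (hst : ∀ g, ∀ w ∈ N, ρ g w ∈ N) :
    ∃ f : W →ₗ[k] k, f ≠ 0 ∧ (∀ w ∈ N, f w = 0) ∧ ∀ g w, f (ρ g w) = f w := by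
  let A : Submodule k (Module.Dual k W) := N.dualAnnihilator
  have hA : ∀ f : Module.Dual k W, f ∈ A ↔ ∀ w ∈ N, f w = 0 := fun f => Submodule.mem_dualAnnihilator f
  have hnt : Nontrivial A := by
    obtain ⟨f, hf, hfN⟩ := N.exists_le_ker_of_lt_top (lt_top_iff_ne_top.2 hN)
    exact ⟨⟨⟨f, (hA f).2 fun w hw => hfN hw⟩, 0, fun h => hf (congrArg Subtype.val h)⟩⟩
  let σ : P →* Module.End k A :=
    { toFun := fun g =>
        { toFun := fun f => ⟨(f : W →ₗ[k] k) ∘ₗ ρ g⁻¹, (hA _).2 fun w hw => (hA _).1 f.2 _ (hst g⁻¹ w hw)⟩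
          map_add' := fun f f' => Subtype.ext (LinearMap.ext fun w => rfl)
          map_smul' := fun c f => Subtype.ext (LinearMap.ext fun w => rfl) }
      map_one' := LinearMap.ext fun f => Subtype.ext (LinearMap.ext fun w => by
        change (f : Module.Dual k W) (ρ 1⁻¹ w) = (f : Module.Dual k W) w
        rw [inv_one, map_one]; rfl)
      map_mul' := fun g g' => LinearMap.ext fun f => Subtype.ext (LinearMap.ext fun w => by
        change (f : Module.Dual k W) (ρ (g * g')⁻¹ w) = (f : Module.Dual k W) (ρ g'⁻¹ (ρ g⁻¹ w))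
        rw [mul_inv_rev, map_mul]; rfl) }
  obtain ⟨f, hf, hfix⟩ := exists_fixed (W := A) p hP σ
  refine ⟨f, fun h => hf (Subtype.ext h), (hA _).1 f.2, fun g w => ?_⟩
  have h1 := congrArg (fun F : A => (F : Module.Dual k W) w) (hfix g⁻¹)
  change (f : Module.Dual k W) (ρ g⁻¹⁻¹ w) = (f : Module.Dual k W) w at h1
  rwa [inv_inv] at h1

/-- common eigenvector of a commutative group of operators -/
theorem exists_eigen {k T : Type*} [Field k] [IsAlgClosed k] [CommGroup T] :
    ∀ d : ℕ, ∀ (W : Type*) [AddCommGroup W] [Module k W] [FiniteDimensional k W] [Nontrivial W],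
    Module.finrank k W = d → ∀ ρ : T →* Module.End k W, ∃ w : W, w ≠ 0 ∧ ∀ t, ∃ c : k, ρ t w = c • w := by
  intro d
  induction d using Nat.strong_induction_on with
  | _ d ih =>
    intro W _ _ _ _ hd ρ
    by_cases hsc : ∀ t, ∃ c : k, ∀ w : W, ρ t w = c • w
    · obtain ⟨w, hw⟩ := exists_ne (0 : W)
      exact ⟨w, hw, fun t => (hsc t).imp fun c hc => hc w⟩
    · push Not at hsc
      obtain ⟨t, ht⟩ := hsc
      obtain ⟨μ, hμ⟩ := Module.End.exists_eigenvalue (ρ t)
      let E := Module.End.eigenspace (ρ t) μ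
      have hE : ∀ w, w ∈ E ↔ ρ t w = μ • w := fun w => Module.End.mem_eigenspace_iff
      have hne : E ≠ ⊤ := by
        intro h
        obtain ⟨w, hw⟩ := ht μ
        exact hw ((hE w).1 (by rw [h]; trivial))
      have hnt : Nontrivial E := by
        obtain ⟨w, hw⟩ := hμ.exists_hasEigenvector
        exact ⟨⟨⟨w, hw.1⟩, 0, fun h => hw.2 (congrArg Subtype.val h)⟩⟩
      have hlt : Module.finrank k E < d := by rw [← hd]; exact Submodule.finrank_lt hne
      have hst : ∀ s, ∀ w ∈ E, ρ s w ∈ E := by
        intro s w hw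
        rw [hE] at hw ⊢
        have : ρ t (ρ s w) = ρ s (ρ t w) := by
          change (ρ t * ρ s) w = (ρ s * ρ t) w
          rw [← map_mul, ← map_mul, mul_comm]
        rw [this, hw, map_smul]
      let σ : T →* Module.End k E :=
        { toFun := fun s => (ρ s).restrict (hst s)
          map_one' := LinearMap.ext fun w => Subtype.ext (by change ρ 1 (w : W) = w; rw [map_one]; rfl)
          map_mul' := fun s s' => LinearMap.ext fun w => Subtype.ext (by
            change ρ (s * s') (w : W) = ρ s (ρ s' w); rw [map_mul]; rfl) }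
      obtain ⟨w, hw, h⟩ := ih _ hlt E rfl σ
      refine ⟨w, fun h => hw (Subtype.ext h), fun s => ?_⟩
      obtain ⟨c, hc⟩ := h s
      exact ⟨c, congrArg Subtype.val hc⟩

end Cfsg.Agent.H53.CR
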