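import Cfsg.Agent.ChevGrp.InstG
import Cfsg.Agent.H53.CRData

set_option autoImplicit false
set_option linter.unusedSectionVars false

/-!
# Curtis-Richen, part 9: the Chevalley groups (helper53)
-/

namespace Cfsg.Agent.H53.CR

open Cfsg.Agent.ChevWeyl Cfsg.Lie Cfsg.Agent.Chev Matrix Cfsg.Agent.ChevGrp Cfsg.Agent.ChevGrp.Inst

theorem zpow_sum_aux {A ι : Type*} [CommGroup A] (c : A) (s : Finset ι) (f : ι → ℤ) :
    c ^ (∑ i ∈ s, f i) = ∏ i ∈ s, c ^ f i := by
  classical
  induction s using Finset.induction_on with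
  | empty => simp
  | insert a s ha ih => rw [Finset.sum_insert ha, Finset.prod_insert ha, _root_.zpow_add, ih]

section torus

variable (D : ChevalleyDatum) (F : Type*) [Field F]

/-- the value of the character of the root `s` -/
def chT (t : Fin D.rank → Fˣ) (s : ℕ) : Fˣ := ∏ i : Fin D.rank, t i ^ (D.cartan i s)

variable {D F}

theorem chT_one (s : ℕ) : chT D F 1 s = 1 := by simp [chT]

theorem chT_mul (t u : Fin D.rank → Fˣ) (s : ℕ) : chT D F (t * u) s = chT D F t s * chT D F u s := by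
  unfold chT
  rw [← Finset.prod_mul_distrib]
  exact Finset.prod_congr rfl fun i _ => by rw [Pi.mul_apply, mul_zpow]

/-- the diagonal vector -/
def dT (t : Fin D.rank → Fˣ) : D.Idx → F := Sum.elim (fun _ => 1) (fun s : Fin D.nroots => (chT D F t s : F))

theorem dT_one : dT (D := D) (F := F) 1 = 1 := by
  funext a
  rcases a with a | a
  · rfl
  · change (chT D F 1 a : F) = 1
    rw [chT_one]; rfl

theorem dT_mul (t u : Fin D.rank → Fˣ) : dT (D := D) (t * u) = fun a => dT (D := D) t a * dT (D := D) u a := by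
  funext a
  rcases a with a | a
  · change (1 : F) = 1 * 1
    rw [one_mul]
  · change (chT D F (t * u) a : F) = chT D F t a * chT D F u a
    rw [chT_mul]; rfl

theorem diag_dT_mul (t u : Fin D.rank → Fˣ) :
    (diagonal (dT (D := D) t) : Matrix D.Idx D.Idx F) * diagonal (dT (D := D) u) = diagonal (dT (D := D) (t * u)) := by
  rw [diagonal_mul_diagonal, dT_mul]

/-- the torus -/
def hT : (Fin D.rank → Fˣ) →* GL D.Idx F where
  toFun t :=
    { val := diagonal (dT (D := D) t)
      inv := diagonal (dT (D := D) t⁻¹)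
      val_inv := by rw [diag_dT_mul, mul_inv_cancel, dT_one]; exact diagonal_one
      inv_val := by rw [diag_dT_mul, inv_mul_cancel, dT_one]; exact diagonal_one }
  map_one' := Units.ext (by
    change diagonal (dT (D := D) 1) = (1 : Matrix D.Idx D.Idx F)
    rw [dT_one]; exact diagonal_one)
  map_mul' t u := Units.ext (diag_dT_mul t u).symm

theorem val_hT (t : Fin D.rank → Fˣ) : ((hT t : GL D.Idx F) : Matrix D.Idx D.Idx F) = diagonal (dT (D := D) t) := rfl

/-- the elements `h_r(c)` -/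
theorem hU_eq_hT (H : Good D) {r : ℕ} (hr : r < D.nroots) (c : Fˣ) :
    hU H r (c : F) = hT (fun i : Fin D.rank => c ^ cc D r i) := by
  refine Units.ext ?_
  rw [val_hU' H hr c.ne_zero, val_hT, hD]
  congr 1
  funext a
  rcases a with a | a
  · rfl
  · change (c : F) ^ pr D r a = (chT D F (fun i : Fin D.rank => c ^ cc D r i) a : F)
    have h1 : (∑ i ∈ Finset.range D.rank, cc D r i * D.cartan i a) = ∑ i : Fin D.rank, cc D r i * D.cartan i a :=
      Finset.sum_range _
    rw [pr, ← Units.val_zpow_eq_zpow_val, h1, zpow_sum_aux]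
    congr 1
    unfold chT
    exact Finset.prod_congr rfl fun i _ => by rw [_root_.zpow_mul]

theorem cc_simple_pow (H : Good D) (i : Fin D.rank) (c : Fˣ) :
    (fun j : Fin D.rank => c ^ cc D (D.simple i) j) = Pi.mulSingle i c := by
  funext j
  rw [H.cc_simple i i.2 j j.2]
  by_cases hij : i = j
  · subst hij
    rw [if_pos rfl, zpow_one, Pi.mulSingle_eq_same]
  · rw [if_neg (fun h => hij (Fin.ext h)), zpow_zero, Pi.mulSingle_eq_of_ne (Ne.symm hij)]

theorem hU_simple (H : Good D) (i : Fin D.rank) (c : Fˣ) :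
    hU H (D.simple i) (c : F) = hT (Pi.mulSingle i c) := by
  rw [hU_eq_hT H (H.simple_lt i i.2), cc_simple_pow H]

theorem hT_mem (H : Good D) (t : Fin D.rank → Fˣ) : (hT t : GL D.Idx F) ∈ D.diagonalSubgroup F := by
  have h1 : t = ∏ j, Pi.mulSingle j (t j) := (Finset.univ_prod_mulSingle t).symm
  have h2 : t ∈ (D.diagonalSubgroup F).comap hT := by
    rw [h1]
    refine Subgroup.prod_mem _ fun j _ => ?_
    rw [Subgroup.mem_comap, ← hU_simple H]
    exact hU_mem H (H.simple_lt j j.2) (t j).ne_zero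
  exact h2

theorem hT_range (H : Good D) : (hT : (Fin D.rank → Fˣ) →* GL D.Idx F).range = D.diagonalSubgroup F := by
  apply le_antisymm
  · rintro _ ⟨t, rfl⟩; exact hT_mem H t
  · rw [diagonal_eq H, Subgroup.closure_le]
    rintro _ ⟨r, c, hr, hc, rfl⟩
    exact ⟨_, (hU_eq_hT H hr (Units.mk0 c hc)).symm⟩

/-- the action of `nn i` on the torus -/
theorem nn_hT (H : Good D) (i : Fin D.rank) (t : Fin D.rank → Fˣ) :
    ∃ c : Fˣ, nn H F i * hT t * (nn H F i)⁻¹ * (hT t)⁻¹ = hT (Pi.mulSingle i c) := by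
  have key : ∀ s : Finset (Fin D.rank), ∃ c : Fˣ, nn H F i * hT (∏ j ∈ s, Pi.mulSingle j (t j)) * (nn H F i)⁻¹ =
      hT (Pi.mulSingle i c) * hT (∏ j ∈ s, Pi.mulSingle j (t j)) := by
    classical
    intro s
    induction s using Finset.induction_on with
    | empty => exact ⟨1, by simp⟩
    | insert j s hj ih =>
      obtain ⟨c, hc⟩ := ih
      have h1 : nn H F i * hT (Pi.mulSingle j (t j)) * (nn H F i)⁻¹ =
          hT (Pi.mulSingle i ((t j) ^ (-(D.cartan j (D.simple i))))) * hT (Pi.mulSingle j (t j)) := by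
        rw [← hU_simple H, nn_hU H i.2 (H.simple_lt j j.2) (t j).ne_zero,
          hU_eq_hT H (H.w_lt i i.2 _ (H.simple_lt j j.2)), hU_simple H, ← map_mul]
        congr 1
        rw [← cc_simple_pow H j]
        funext a
        rw [Pi.mul_apply, H.cc_w i i.2 _ (H.simple_lt j j.2) a a.2, sub_eq_add_neg, _root_.zpow_add, mul_comm]
        congr 1
        by_cases ha : a = i
        · subst ha
          rw [if_pos rfl, Pi.mulSingle_eq_same]
          congr 2
          rw [Finset.sum_eq_single (j : ℕ)]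
          · rw [H.cc_simple j j.2 j j.2, if_pos rfl, one_mul]
          · intro b hb hbj
            rw [H.cc_simple j j.2 b (Finset.mem_range.1 hb), if_neg (Ne.symm hbj), zero_mul]
          · intro h; exact absurd (Finset.mem_range.2 j.2) h
        · rw [if_neg (fun h => ha (Fin.ext h)), neg_zero, zpow_zero, Pi.mulSingle_eq_of_ne ha]
      refine ⟨(t j) ^ (-(D.cartan j (D.simple i))) * c, ?_⟩
      rw [Finset.prod_insert hj, map_mul]
      have e : nn H F i * (hT (Pi.mulSingle j (t j)) * hT (∏ j ∈ s, Pi.mulSingle j (t j))) * (nn H F i)⁻¹ =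
          (nn H F i * hT (Pi.mulSingle j (t j)) * (nn H F i)⁻¹) *
          (nn H F i * hT (∏ j ∈ s, Pi.mulSingle j (t j)) * (nn H F i)⁻¹) := by group
      rw [e, h1, hc, Pi.mulSingle_mul, ← map_mul, ← map_mul, ← map_mul, ← map_mul, ← map_mul]
      congr 1
      rw [mul_mul_mul_comm]
  obtain ⟨c, hc⟩ := key Finset.univ
  refine ⟨c, ?_⟩
  rw [Finset.univ_prod_mulSingle] at hc
  rw [hc]; group

/-- injectivity of the torus homomorphism -/
theorem hT_inj (B : Fin D.rank → Fin D.rank → ℤ) (d : ℕ)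
    (hB : ∀ i k : Fin D.rank, ∑ j : Fin D.rank, D.cartan i (D.simple j) * B j k = if i = k then (d : ℤ) else 0)
    (hs : ∀ j : Fin D.rank, D.simple j < D.nroots) (hd : ∀ c : Fˣ, c ^ d = 1 → c = 1) :
    Function.Injective (hT : (Fin D.rank → Fˣ) →* GL D.Idx F) := by
  rw [injective_iff_map_eq_one]
  intro t ht
  have h1 : ∀ s : Fin D.nroots, chT D F t s = 1 := by
    intro s
    have h2 := congrArg (fun g : GL D.Idx F => (g : Matrix D.Idx D.Idx F) (Sum.inr s) (Sum.inr s)) ht
    simp only [val_hT, diagonal_apply_eq, Units.val_one, one_apply_eq] at h2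
    exact Units.ext h2
  funext k
  apply hd
  have h3 : ∏ j : Fin D.rank, (chT D F t (D.simple j)) ^ (B j k) = 1 :=
    Finset.prod_eq_one fun j _ => by rw [h1 ⟨D.simple j, hs j⟩, _root_.one_zpow]
  have h4 : ∏ j : Fin D.rank, (chT D F t (D.simple j)) ^ (B j k) =
      ∏ i : Fin D.rank, t i ^ (∑ j : Fin D.rank, D.cartan i (D.simple j) * B j k) := by
    unfold chT
    have h5 : ∀ j : Fin D.rank, (∏ i : Fin D.rank, t i ^ (D.cartan i (D.simple j))) ^ (B j k) =
        ∏ i : Fin D.rank, t i ^ (D.cartan i (D.simple j) * B j k) := by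
      intro j
      rw [← Finset.prod_zpow]
      exact Finset.prod_congr rfl fun i _ => (_root_.zpow_mul _ _ _).symm
    rw [Finset.prod_congr rfl fun j _ => h5 j, Finset.prod_comm]
    exact Finset.prod_congr rfl fun i _ => (zpow_sum_aux _ _ _).symm
  rw [h4, Finset.prod_eq_single k] at h3
  · rw [hB, if_pos rfl, zpow_natCast] at h3
    exact h3
  · intro i _ hik
    rw [hB, if_neg hik, zpow_zero]
  · intro h; exact absurd (Finset.mem_univ _) h

/-- the rank one relation -/
theorem nn_x_nn (H : Good D) (i : Fin D.rank) (c : Fˣ) :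
    ∃ a ∈ XF D F ⟨D.simple i, H.simple_lt i i.2⟩, ∃ b ∈ XF D F ⟨D.simple i, H.simple_lt i i.2⟩,
      nn H F i * xU H.toGood2 (D.simple i) (-(c : F)) * nn H F i = a * nn H F i * hT (Pi.mulSingle i c) * b := by
  set r := D.simple i with hr
  have hrl : r < D.nroots := H.simple_lt i i.2
  -- `s = -c`
  set s : Fˣ := -c with hs
  have hsv : -(c : F) = (s : F) := by rw [hs, Units.val_neg]
  have h1 := nn_xU (F := F) H i.2 hrl (s : F)
  have hw : D.reflectRoot i r = D.neg r := by
    have h2 := H.w_w i i.2 r hrl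
    unfold ChevalleyDatum.reflectRoot
    rw [if_pos hr]
  have he : eta D i r = -1 := by
    unfold eta
    rw [if_pos (Or.inl hr)]
  rw [hw, he] at h1
  have h3 : xU H.toGood2 (D.neg r) (((-1 : ℤ) : F) * (s : F)) =
      (xU H.toGood2 r ((s⁻¹ : Fˣ) : F))⁻¹ * nU H r ((s⁻¹ : Fˣ) : F) * (xU H.toGood2 r ((s⁻¹ : Fˣ) : F))⁻¹ := by
    have e1 : (((-1 : ℤ) : F) * (s : F)) = -(((s⁻¹ : Fˣ) : F))⁻¹ := by
      push_cast
      rw [inv_inv]; ring
    rw [nU_eq, e1]; group
  have h4 : nU H r ((s⁻¹ : Fˣ) : F) = hU H r ((s⁻¹ : Fˣ) : F) * nn H F i := by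
    rw [hU, nn, nU_neg H _ 1, ← hr]; group
  have hsq : nn H F i * nn H F i = (hU H r (((-1 : Fˣ)) : F))⁻¹ := by
    rw [hU, Units.val_neg, Units.val_one, nU_neg, _root_.mul_inv_rev, inv_inv]; rfl
  set X := xU H.toGood2 r ((s⁻¹ : Fˣ) : F) with hX
  have hXm : X ∈ XF D F ⟨r, hrl⟩ := xU_mem _ _ _
  have hsqm : nn H F i * nn H F i ∈ D.diagonalSubgroup F := by
    rw [hsq]; exact inv_mem (hU_mem H hrl (Units.ne_zero _))
  have hXm' : (nn H F i * nn H F i)⁻¹ * X⁻¹ * (nn H F i * nn H F i) ∈ XF D F ⟨r, hrl⟩ := by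
    have h5 := (Subgroup.mem_normalizer_iff.1 (H_norm_X H (inv_mem hsqm) hrl) X⁻¹).1 (inv_mem hXm)
    rwa [inv_inv] at h5
  refine ⟨X⁻¹, inv_mem hXm, _, hXm', ?_⟩
  -- `nn⁻¹ h(s⁻¹) nn = h(s)`
  have h6 : (nn H F i)⁻¹ * hU H r ((s⁻¹ : Fˣ) : F) * nn H F i = hT (Pi.mulSingle i s) := by
    have h7 := nn_hU (F := F) H i.2 hrl (Units.ne_zero s)
    rw [hw, hU_eq_hT H (neg_lt H.toGood1 hrl)] at h7
    have h8 : (fun a : Fin D.rank => s ^ cc D (D.neg r) a) = Pi.mulSingle i s⁻¹ := by
      rw [← cc_simple_pow H i]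
      funext a
      rw [H.neg_eq r hrl, H.cc_neg' a a.2 r hrl, ← hr, _root_.zpow_neg, _root_.inv_zpow]
    rw [h8, ← hU_simple H] at h7
    rw [← hU_simple H, ← hr]
    rw [← hr] at h7
    rw [← h7]; group
  have e1 : nn H F i * xU H.toGood2 r (-(c : F)) * nn H F i =
      (nn H F i * xU H.toGood2 r (s : F) * (nn H F i)⁻¹) * (nn H F i * nn H F i) := by rw [hsv]; group
  rw [e1, h1, h3, h4]
  have e2 : X⁻¹ * (hU H r ((s⁻¹ : Fˣ) : F) * nn H F i) * X⁻¹ * (nn H F i * nn H F i) =
      X⁻¹ * nn H F i * (((nn H F i)⁻¹ * hU H r ((s⁻¹ : Fˣ) : F) * nn H F i) * (nn H F i * nn H F i)) *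
        ((nn H F i * nn H F i)⁻¹ * X⁻¹ * (nn H F i * nn H F i)) := by group
  rw [e2, h6, hsq]
  congr 2
  have h9 : hU H r (((-1 : Fˣ)) : F) = hT (Pi.mulSingle i (-1)) := by rw [hr, hU_simple H]
  rw [h9, ← map_inv, ← map_mul, ← Pi.mulSingle_inv, ← Pi.mulSingle_mul, hs]
  congr 3
  rw [inv_neg, inv_one, neg_mul_neg, mul_one]

end torus

section inst

variable {D : ChevalleyDatum} (E : DData D) (H : Good D) (F : Type*) [Field F]

theorem nd_coe (L : List (Fin D.rank)) :
    (((chevG E H F).nd L : ↥(D.group F)) : GL D.Idx F) = (L.map fun i : Fin D.rank => nn H F (i : ℕ)).prod := by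
  induction L with
  | nil => rfl
  | cons i L ih =>
    rw [RGrp.nd_cons, Subgroup.coe_mul, ih, List.map_cons, List.prod_cons]; rfl

/-- positivity of the images of simple roots under parabolic subgroups of the Weyl group -/
theorem posK_aux (K : Set (Fin D.rank)) (L : List (Fin D.rank)) (hL : ∀ j ∈ L, j ∈ K) (i : Fin D.rank) (hi : i ∉ K) :
    E.rp.wsys.Pos (E.rp.wsys.wd L (E.rp.wsys.p i)) := by
  have h1 : E.rp.c (E.rp.wsys.wd L (E.rp.p i)) i = 1 := by
    induction L with
    | nil =>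
      rw [WSys.wd_nil, Equiv.Perm.one_apply, E.rp.c_p, if_pos rfl]
    | cons j L ih =>
      have h2 : i ≠ j := by
        rintro rfl; exact hi (hL i List.mem_cons_self)
      rw [WSys.wd_cons, Equiv.Perm.mul_apply]
      change E.rp.c (E.rp.w j _) i = 1
      rw [E.rp.c_w, if_neg h2, sub_zero]
      exact ih fun a ha => hL a (List.mem_cons_of_mem _ ha)
  change E.rp.Pos (E.rp.wsys.wd L (E.rp.p i))
  by_contra hcon
  rw [E.rp.not_pos_iff] at hcon
  have := hcon i
  rw [h1] at this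
  omega

/-- the data of the Chevalley group on its torus -/
noncomputable def crd (B : Fin D.rank → Fin D.rank → ℤ) (d : ℕ)
    (hB : ∀ i k : Fin D.rank, ∑ j : Fin D.rank, D.cartan i (D.simple j) * B j k = if i = k then (d : ℤ) else 0)
    (hd : ∀ c : Fˣ, c ^ d = 1 → c = 1) : CRD (chevG E H F) Fˣ where
  h := (hT : (Fin D.rank → Fˣ) →* GL D.Idx F).codRestrict (D.group F) fun t => H_le_group E H (hT_mem H t)
  h_inj := by
    intro s t hst
    exact hT_inj B d hB (fun j => H.simple_lt j j.2) hd (congrArg Subtype.val hst)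
  h_range := by
    rw [chevG_H]
    ext g
    rw [Subgroup.mem_subgroupOf, ← hT_range H]
    constructor
    · rintro ⟨t, rfl⟩; exact ⟨t, rfl⟩
    · rintro ⟨t, ht⟩; exact ⟨t, Subtype.ext ht⟩
  x i c := ⟨xU H.toGood2 (D.simple i) (-(c : F)), xU_mem_group E H (H.simple_lt i i.2) _⟩
  x_mem i c := by
    rw [chevG_X, Subgroup.mem_subgroupOf]
    have h1 : ((E.rp.p i : Fin D.nroots) : ℕ) = D.simple i := E.hp i
    change _ ∈ D.rootSubgroup F ((E.rp.p i : Fin D.nroots) : ℕ)
    rw [h1]; exact xU_mem H.toGood2 _ _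
  x_ne i c h := by
    have h1 := congrArg (fun g : ↥(D.group F) => (g : GL D.Idx F)) h
    exact xU_ne_one H (H.simple_lt i i.2) (neg_ne_zero.2 c.ne_zero) h1
  x_inj := by
    intro i c c' h
    have h1 : xU H.toGood2 (D.simple i) (-(c : F)) = xU H.toGood2 (D.simple i) (-(c' : F)) := congrArg Subtype.val h
    by_contra hne
    have h2 : xU H.toGood2 (D.simple i) (-(c : F) + (c' : F)) = 1 := by
      rw [← xU_add H.toGood2 (H.simple_lt i i.2), h1, xU_add H.toGood2 (H.simple_lt i i.2), neg_add_cancel, xU_zero]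
    refine xU_ne_one H (H.simple_lt i i.2) ?_ h2
    intro h0
    apply hne
    apply Units.ext
    linear_combination -h0
  x_surj := by
    intro i y hy hy1
    rw [chevG_X, Subgroup.mem_subgroupOf] at hy
    have h1 : ((E.rp.p i : Fin D.nroots) : ℕ) = D.simple i := E.hp i
    change _ ∈ D.rootSubgroup F ((E.rp.p i : Fin D.nroots) : ℕ) at hy
    rw [h1] at hy
    obtain ⟨t, ht⟩ := (mem_rootSubgroup H.toGood2 (H.simple_lt i i.2)).1 hy
    have ht0 : t ≠ 0 := by
      rintro rfl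
      rw [xU_zero] at ht
      exact hy1 (Subtype.ext ht)
    refine ⟨-(Units.mk0 t ht0), Subtype.ext ?_⟩
    change _ = xU H.toGood2 (D.simple i) (-((-(Units.mk0 t ht0) : Fˣ) : F))
    rw [Units.val_neg, _root_.neg_neg, Units.val_mk0, ht]
  x_nn i c := by
    obtain ⟨a, ha, b, hb, e⟩ := nn_x_nn H i c
    have h1 : ((E.rp.p i : Fin D.nroots) : ℕ) = D.simple i := E.hp i
    have hle : D.rootSubgroup F (D.simple i) ≤ D.group F := by
      intro x hx
      obtain ⟨t, rfl⟩ := (mem_rootSubgroup H.toGood2 (H.simple_lt i i.2)).1 hx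
      exact xU_mem_group E H (H.simple_lt i i.2) t
    refine ⟨⟨a, hle ha⟩, ?_, ⟨b, hle hb⟩, ?_, ?_⟩
    · rw [chevG_X, Subgroup.mem_subgroupOf]
      change _ ∈ D.rootSubgroup F ((E.rp.p i : Fin D.nroots) : ℕ)
      rw [h1]; exact ha
    · rw [chevG_X, Subgroup.mem_subgroupOf]
      change _ ∈ D.rootSubgroup F ((E.rp.p i : Fin D.nroots) : ℕ)
      rw [h1]; exact hb
    · exact Subtype.ext e
  nn_sq i := by
    refine ⟨(-1)⁻¹, Subtype.ext ?_⟩
    change nn H F i * nn H F i = hT (Pi.mulSingle i (-1)⁻¹)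
    rw [Pi.mulSingle_inv, map_inv, ← hU_simple H, hU, Units.val_neg, Units.val_one, nU_neg, _root_.mul_inv_rev, inv_inv]
    rfl
  conj_nn := by
    intro L j k h
    obtain ⟨η, h1, h2⟩ := word_nU (F := F) E H L (E.rp.p j) (Or.inl rfl)
    have hj : ((E.rp.p j : Fin D.nroots) : ℕ) = D.simple j := E.hp j
    have hk : ((E.rp.p k : Fin D.nroots) : ℕ) = D.simple k := E.hp k
    have h' : E.rp.wsys.wd L (E.rp.p j) = E.rp.p k := h
    rw [h', hj, hk] at h2
    have h3 : ∃ c : Fˣ, (c : F) = η := by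
      rcases h1 with rfl | rfl
      · exact ⟨1, rfl⟩
      · exact ⟨-1, by rw [Units.val_neg, Units.val_one]⟩
    obtain ⟨c, rfl⟩ := h3
    refine ⟨c, Subtype.ext ?_⟩
    change ((chevG E H F).nd L : GL D.Idx F) * nU H (D.simple j) 1 * ((chevG E H F).nd L : GL D.Idx F)⁻¹ *
      (nU H (D.simple k) 1)⁻¹ = hT (Pi.mulSingle k c)
    rw [nd_coe, h2, ← hU_simple H, hU, nU_neg]
  nn_h i t := by
    obtain ⟨c, hc⟩ := nn_hT H i t
    exact ⟨c, Subtype.ext hc⟩
  posK := fun K L hL i hi => posK_aux E K L hL i hi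
  top := chevG_Grp E H

end inst

end Cfsg.Agent.H53.CR
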