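import Cfsg.Agent.H53.CRRep
import Cfsg.Agent.H53.BrauerCount

set_option autoImplicit false

/-!
# Curtis-Richen, part 5: the modules generated by weight vectors (helper53)
-/

namespace Cfsg.Agent.H53.CR

open Cfsg.Agent.ChevGrp Cfsg.Agent.ChevGrp.RGrp

variable {l n : ℕ} {S : WSys l n} {G : Type*} [Group G] [Finite G] {R : RGrp S G} {Q : Type*} [CommGroup Q]
variable {C : CRD R Q}

attribute [local instance] ftSub

variable {k : Type*} [Field k]

section rep

variable {M : Type*} [AddCommGroup M] [Module k M] {ρ : G →* Module.End k M}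

variable (ρ) in
/-- the stabiliser of a subspace -/
def stab (Y : Submodule k M) : Subgroup G where
  carrier := {g | ∀ w ∈ Y, ρ g w ∈ Y}
  one_mem' := fun w hw => by rw [rone]; exact hw
  mul_mem' := fun {a b} ha hb w hw => by rw [rmul]; exact ha _ (hb w hw)
  inv_mem' := by
    intro g hg
    have h1 : g⁻¹ = g ^ (orderOf g - 1) := by
      rw [inv_eq_iff_mul_eq_one, ← pow_succ', Nat.sub_add_cancel (orderOf_pos g), pow_orderOf_eq_one]
    have h2 : ∀ j : ℕ, ∀ w ∈ Y, ρ (g ^ j) w ∈ Y := by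
      intro j
      induction j with
      | zero => intro w hw; rw [pow_zero, rone]; exact hw
      | succ j ih => intro w hw; rw [pow_succ, rmul]; exact ih _ (hg w hw)
    rw [h1]; exact h2 _

variable (R ρ) in
/-- the span of the images of `v` under `V` -/
def vspan (v : M) : Submodule k M := Submodule.span k {w | ∃ y ∈ R.V, w = ρ y v}

omit [Finite G] in
theorem mem_vspan (v : M) {y : G} (hy : y ∈ R.V) : ρ y v ∈ vspan R ρ v := Submodule.subset_span ⟨y, hy, rfl⟩

theorem V_le_stab (v : M) : R.V ≤ stab ρ (vspan R ρ v) := by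
  intro y hy w hw
  refine Submodule.span_induction (p := fun w _ => ρ y w ∈ vspan R ρ v) ?_ ?_ ?_ ?_ hw
  · rintro _ ⟨y', hy', rfl⟩
    rw [← rmul]; exact mem_vspan v (mul_mem hy hy')
  · rw [map_zero]; exact Submodule.zero_mem _
  · intro a b _ _ ha hb; rw [map_add]; exact Submodule.add_mem _ ha hb
  · intro c a _ ha; rw [map_smul]; exact Submodule.smul_mem _ c ha

theorem mem_stab_of {v : M} {g : G} (h : ∀ y ∈ R.V, ρ g (ρ y v) ∈ vspan R ρ v) : g ∈ stab ρ (vspan R ρ v) := by
  intro w hw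
  refine Submodule.span_induction (p := fun w _ => ρ g w ∈ vspan R ρ v) ?_ ?_ ?_ ?_ hw
  · rintro _ ⟨y', hy', rfl⟩
    exact h y' hy'
  · rw [map_zero]; exact Submodule.zero_mem _
  · intro a b _ _ ha hb; rw [map_add]; exact Submodule.add_mem _ ha hb
  · intro c a _ ha; rw [map_smul]; exact Submodule.smul_mem _ c ha

/-- the span of `V v` is stable under `G` -/
theorem stab_eq_top {χ : (Fin l → Q) →* kˣ} {lam : Fin l → k} {v : M} (h : Wt C ρ χ lam v) :
    stab ρ (vspan R ρ v) = ⊤ := by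
  classical
  refine eq_top_of C.top _ (V_le_stab v) ?_ ?_
  · intro g hg
    refine mem_stab_of fun y hy => ?_
    obtain ⟨t, rfl⟩ := C.mem_H.1 hg
    have h1 := H_norm_gen (R := R) (fun r => ¬ S.Pos r) (C.h t) hg y hy
    have e : C.h t * y = (C.h t * y * (C.h t)⁻¹) * C.h t := by group
    rw [← rmul, e, rmul, h.be.2, map_smul]
    exact Submodule.smul_mem _ _ (mem_vspan v h1)
  · intro i
    refine mem_stab_of fun y hy => ?_
    obtain ⟨z, hz, x, hx, rfl⟩ := mem_V' i hy
    have h1 := Vi_le_V i (nn_Vi i z hz)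
    have e : R.nn i * (z * x) = (R.nn i * z * (R.nn i)⁻¹) * (R.nn i * x) := by group
    rw [← rmul, e, rmul]
    refine V_le_stab v h1 _ ?_
    -- the span of the `a nn_i v`
    let Wi : Submodule k M := Submodule.span k {w | ∃ a ∈ R.X (S.p i), w = ρ (a * R.nn i) v}
    have hA1 : ∀ a ∈ R.X (S.p i), a ≠ 1 → ρ (R.nn i * a * R.nn i) v ∈ Wi := by
      intro a ha ha1
      obtain ⟨c, rfl⟩ := C.x_surj i a ha ha1
      obtain ⟨a', ha', b, hb, e⟩ := C.x_nn i c
      rw [e, rmul, h.be.1 b (R.X_le_U (S.pos_p i) hb), rmul, h.be.2, map_smul]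
      exact Submodule.smul_mem _ _ (Submodule.subset_span ⟨a', ha', rfl⟩)
    have hA : ∀ a ∈ R.X (S.p i), ρ (R.nn i * a * R.nn i) v ∈ Wi := by
      intro a ha
      by_cases ha1 : a = 1
      · have h2 := congrArg (ρ (R.nn i)) (h.eig i)
        have h3 : ρ (R.nn i) (T ρ R i v) = ∑ y : R.X (S.p i), ρ (R.nn i * y * R.nn i) v := by
          unfold T sm
          rw [map_sum]
          exact Finset.sum_congr rfl fun y _ => by rw [← rmul, ← rmul, mul_assoc]
        rw [h3, map_smul, ← Finset.add_sum_erase _ _ (Finset.mem_univ (1 : R.X (S.p i)))] at h2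
        have h4 : ρ (R.nn i * a * R.nn i) v = lam i • ρ (R.nn i) v -
            ∑ y ∈ Finset.univ.erase (1 : R.X (S.p i)), ρ (R.nn i * y * R.nn i) v := by
          rw [← h2, ha1]
          simp
        rw [h4]
        refine Submodule.sub_mem _ (Submodule.smul_mem _ _ (Submodule.subset_span ⟨1, one_mem _, by rw [one_mul]⟩))
          (Submodule.sum_mem _ fun y hy => hA1 y y.2 fun h => ?_)
        exact (Finset.mem_erase.1 hy).1 (Subtype.ext h)
      · exact hA1 a ha ha1
    have hC : ∀ w ∈ Wi, ρ (R.nn i) w ∈ vspan R ρ v := by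
      intro w hw
      refine Submodule.span_induction (p := fun w _ => ρ (R.nn i) w ∈ vspan R ρ v) ?_ ?_ ?_ ?_ hw
      · rintro _ ⟨a, ha, rfl⟩
        obtain ⟨c, hc⟩ := C.nn_sq i
        have h2 := (act_nn (R := R) i).conj ha
        rw [S.w_p] at h2
        have e : R.nn i * (a * R.nn i) = (R.nn i * a * (R.nn i)⁻¹) * C.h (Pi.mulSingle i c) := by rw [← hc]; group
        rw [← rmul, e, rmul, h.be.2, map_smul]
        exact Submodule.smul_mem _ _ (mem_vspan v (Xneg_le_V i h2))
      · rw [map_zero]; exact Submodule.zero_mem _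
      · intro a b _ _ ha hb; rw [map_add]; exact Submodule.add_mem _ ha hb
      · intro c a _ ha; rw [map_smul]; exact Submodule.smul_mem _ c ha
    have h2 : (R.nn i)⁻¹ * x * R.nn i ∈ R.X (S.p i) := by
      have := (act_nn (R := R) i).conj' hx
      rwa [S.w_inv, S.w_neg, S.w_p, S.neg_neg] at this
    obtain ⟨c, hc⟩ := C.nn_sq i
    have e2 : x = (R.nn i * ((R.nn i)⁻¹ * x * R.nn i) * R.nn i) * C.h (Pi.mulSingle i c)⁻¹ := by
      rw [map_inv, ← hc]; group
    rw [rmul, e2, rmul, h.be.2, map_smul, map_smul]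
    exact Submodule.smul_mem _ _ (hC _ (hA _ h2))

theorem vspan_stable {χ : (Fin l → Q) →* kˣ} {lam : Fin l → k} {v : M} (h : Wt C ρ χ lam v) (g : G) :
    ∀ w ∈ vspan R ρ v, ρ g w ∈ vspan R ρ v := by
  have h1 : g ∈ stab ρ (vspan R ρ v) := by rw [stab_eq_top h]; trivial
  exact h1

omit [Finite G] in
theorem V_pgroup (p : ℕ) (hU : IsPGroup p R.U) : IsPGroup p R.V := by
  obtain ⟨g, -, u, -, -, hUV⟩ := exists_n0 (R := R)
  rw [← hUV]
  exact hU.map _

/-- the invariant functional -/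
theorem exists_f0 (p : ℕ) [Fact p.Prime] [CharP k p] (hU : IsPGroup p R.U) {v : M} (hv : v ≠ 0)
    (hspan : vspan R ρ v = ⊤) :
    ∃ f : M →ₗ[k] k, f v = 1 ∧ (∀ y ∈ R.V, ∀ m, f (ρ y m) = f m) ∧
      (∀ f' : M →ₗ[k] k, (∀ y ∈ R.V, ∀ m, f' (ρ y m) = f' m) → f' = f' v • f) ∧
      ∀ N : Submodule k M, N ≠ ⊤ → (∀ y ∈ R.V, ∀ w ∈ N, ρ y w ∈ N) → ∀ w ∈ N, f w = 0 := by
  have hV := V_pgroup (R := R) p hU
  -- invariant functionals are determined by the value at `v`
  have hdet : ∀ f f' : M →ₗ[k] k, (∀ y ∈ R.V, ∀ m, f (ρ y m) = f m) → (∀ y ∈ R.V, ∀ m, f' (ρ y m) = f' m) →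
      f v = f' v → f = f' := by
    intro f f' hf hf' hvv
    ext m
    have hm : m ∈ vspan R ρ v := by rw [hspan]; trivial
    refine Submodule.span_induction (p := fun m _ => f m = f' m) ?_ ?_ ?_ ?_ hm
    · rintro _ ⟨y, hy, rfl⟩; rw [hf y hy, hf' y hy, hvv]
    · rw [map_zero, map_zero]
    · intro a b _ _ ha hb; rw [map_add, map_add, ha, hb]
    · intro c a _ ha; rw [map_smul, map_smul, ha]
  have hbot : (⊥ : Submodule k M) ≠ ⊤ := by
    intro h
    apply hv
    have : v ∈ (⊥ : Submodule k M) := by rw [h]; trivial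
    exact (Submodule.mem_bot k).1 this
  obtain ⟨g, hg, -, hginv⟩ := exists_functional p hV (ρ.comp R.V.subtype) ⊥ hbot (by
    intro y w hw
    rw [Submodule.mem_bot] at hw ⊢
    rw [hw]; exact map_zero _)
  have hginv' : ∀ y ∈ R.V, ∀ m, g (ρ y m) = g m := fun y hy m => hginv ⟨y, hy⟩ m
  have hgv : g v ≠ 0 := by
    intro h0
    exact hg (hdet g 0 hginv' (fun _ _ _ => rfl) (by rw [h0]; rfl))
  refine ⟨(g v)⁻¹ • g, ?_, ?_, ?_, ?_⟩
  · change (g v)⁻¹ * g v = 1
    exact inv_mul_cancel₀ hgv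
  · intro y hy m
    change (g v)⁻¹ * g (ρ y m) = (g v)⁻¹ * g m
    rw [hginv' y hy]
  · intro f' hf'
    refine hdet _ _ hf' ?_ ?_
    · intro y hy m
      change f' v * ((g v)⁻¹ * g (ρ y m)) = f' v * ((g v)⁻¹ * g m)
      rw [hginv' y hy]
    · change f' v = f' v * ((g v)⁻¹ * g v)
      rw [inv_mul_cancel₀ hgv, mul_one]
  · intro N hN hst w hw
    obtain ⟨f', hf', hf'N, hf'inv⟩ := exists_functional p hV (ρ.comp R.V.subtype) N hN (fun y w hw => hst y y.2 w hw)
    have hf'inv' : ∀ y ∈ R.V, ∀ m, f' (ρ y m) = f' m := fun y hy m => hf'inv ⟨y, hy⟩ m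
    have hf'v : f' v ≠ 0 := by
      intro h0
      exact hf' (hdet f' 0 hf'inv' (fun _ _ _ => rfl) (by rw [h0]; rfl))
    -- `g = (g v / f' v) f'`
    have h1 : g = (g v * (f' v)⁻¹) • f' := by
      refine hdet _ _ hginv' ?_ ?_
      · intro y hy m
        change (g v * (f' v)⁻¹) * f' (ρ y m) = (g v * (f' v)⁻¹) * f' m
        rw [hf'inv' y hy]
      · change g v = (g v * (f' v)⁻¹) * f' v
        rw [mul_assoc, inv_mul_cancel₀ hf'v, mul_one]
    have h2 : g w = 0 := by
      rw [h1]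
      change (g v * (f' v)⁻¹) * f' w = 0
      rw [hf'N w hw, mul_zero]
    change (g v)⁻¹ * g w = 0
    rw [h2, mul_zero]

/-- two weight vectors which generate the same module have the same weight -/
theorem weight_unique (p : ℕ) [Fact p.Prime] [CharP k p] (hU : IsPGroup p R.U)
    {χ χ' : (Fin l → Q) →* kˣ} {lam lam' : Fin l → k} {v v' : M} (h : Wt C ρ χ lam v) (h' : Wt C ρ χ' lam' v')
    (hs : vspan R ρ v = ⊤) (hs' : vspan R ρ v' = ⊤) : χ = χ' ∧ lam = lam' := by
  obtain ⟨f, hf1, hfV, hfu, -⟩ := exists_f0 (ρ := ρ) p hU h.ne hs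
  have hfv' : f v' ≠ 0 := by
    intro h0
    have h1 : ∀ m, f m = 0 := by
      intro m
      have hm : m ∈ vspan R ρ v' := by rw [hs']; trivial
      refine Submodule.span_induction (p := fun m _ => f m = 0) ?_ ?_ ?_ ?_ hm
      · rintro _ ⟨y, hy, rfl⟩; rw [hfV y hy, h0]
      · exact map_zero _
      · intro a b _ _ ha hb; rw [map_add, ha, hb, add_zero]
      · intro c a _ ha; rw [map_smul, ha, smul_zero]
    rw [h1] at hf1
    exact zero_ne_one hf1
  constructor
  · refine MonoidHom.ext fun t => Units.ext ?_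
    have h1 := hfu (f ∘ₗ ρ (C.h t)) (by
      intro y hy m
      change f (ρ (C.h t) (ρ y m)) = f (ρ (C.h t) m)
      have h2 := H_norm_gen (R := R) (fun r => ¬ S.Pos r) (C.h t) (C.h_mem t) y hy
      have e : C.h t * y = (C.h t * y * (C.h t)⁻¹) * C.h t := by group
      rw [← rmul, e, rmul, hfV _ h2])
    have h2 := congrArg (fun F : M →ₗ[k] k => F v') h1
    change f (ρ (C.h t) v') = f (ρ (C.h t) v) * f v' at h2
    rw [h.be.2, h'.be.2, map_smul, map_smul, hf1, smul_eq_mul, smul_eq_mul, mul_one] at h2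
    exact (mul_right_cancel₀ hfv' h2).symm
  · funext i
    let Tl : M →ₗ[k] M := { toFun := T ρ R i, map_add' := T_add ρ i, map_smul' := T_smul ρ i }
    have h1 := hfu (f ∘ₗ Tl) (by
      intro y hy m
      change f (T ρ R i (ρ y m)) = f (T ρ R i m)
      obtain ⟨x, hx, z, hz, rfl⟩ := mem_V i hy
      -- move the sum to the right
      have key : ∀ m, T ρ R i m = ρ (R.nn i) (sm ρ (R.X (S.neg (S.p i))) m) := by
        intro m
        unfold T sm
        rw [map_sum]
        let e : R.X (S.p i) ≃ R.X (S.neg (S.p i)) :=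
          { toFun := fun x => ⟨(R.nn i)⁻¹ * x * R.nn i, by
              have := (act_nn (R := R) i).conj' x.2
              rwa [S.w_inv, S.w_p] at this⟩
            invFun := fun x => ⟨R.nn i * x * (R.nn i)⁻¹, by
              have := (act_nn (R := R) i).conj x.2
              rwa [S.w_neg, S.w_p, S.neg_neg] at this⟩
            left_inv := fun x => Subtype.ext (by simp [mul_assoc])
            right_inv := fun x => Subtype.ext (by simp [mul_assoc]) }
        refine Fintype.sum_equiv e _ _ fun x => ?_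
        change _ = ρ (R.nn i) (ρ ((R.nn i)⁻¹ * x * R.nn i) m)
        rw [← rmul, ← rmul]
        congr 2
        group
      rw [key, key]
      have h3 : sm ρ (R.X (S.neg (S.p i))) (ρ (x * z) m) = sm ρ (R.X (S.neg (S.p i))) (ρ z m) := by
        unfold sm
        refine Fintype.sum_equiv (Equiv.mulRight (⟨x, hx⟩ : R.X (S.neg (S.p i)))) _ _ fun a => ?_
        change _ = ρ (a * x) (ρ z m)
        rw [← rmul, ← rmul, mul_assoc]
      rw [h3]
      unfold sm
      rw [map_sum, map_sum, map_sum, map_sum]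
      refine Finset.sum_congr rfl fun a _ => ?_
      have h4 := Vi_le_V i (nn_Vi i _ (Xneg_Vi i (a : G) a.2 z hz))
      have e : R.nn i * a * z = (R.nn i * (a * z * (a : G)⁻¹) * (R.nn i)⁻¹) * (R.nn i * a) := by group
      rw [← rmul, ← rmul, ← rmul, e, rmul, hfV _ h4])
    have h2 := congrArg (fun F : M →ₗ[k] k => F v') h1
    change f (T ρ R i v') = f (T ρ R i v) * f v' at h2
    rw [h.eig, h'.eig, map_smul, map_smul, hf1, smul_eq_mul, smul_eq_mul, mul_one] at h2
    exact (mul_right_cancel₀ hfv' h2).symm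

end rep

end Cfsg.Agent.H53.CR
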