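import Cfsg.Agent.H53.CRData
import Cfsg.Agent.H53.CRFix

set_option autoImplicit false

/-!
# Curtis-Richen, part 4: weight vectors (helper53)
-/

namespace Cfsg.Agent.H53.CR

open Cfsg.Agent.ChevGrp Cfsg.Agent.ChevGrp.RGrp

variable {l n : ℕ} {S : WSys l n} {G : Type*} [Group G] [Finite G] {R : RGrp S G} {Q : Type*} [CommGroup Q]
variable (C : CRD R Q)

/-- a finiteness instance -/
@[reducible] noncomputable def ftSub (P : Subgroup G) : Fintype P := Fintype.ofFinite P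

attribute [local instance] ftSub

variable {k : Type*} [Field k] {M : Type*} [AddCommGroup M] [Module k M] (ρ : G →* Module.End k M)

omit [Finite G] in
theorem rmul (a b : G) (v : M) : ρ (a * b) v = ρ a (ρ b v) := by rw [map_mul]; rfl

omit [Finite G] in
theorem rone (v : M) : ρ 1 v = v := by rw [map_one]; rfl

omit [Finite G] in
theorem rinv (a : G) (v : M) : ρ a⁻¹ (ρ a v) = v := by rw [← rmul, inv_mul_cancel, rone]

omit [Finite G] in
theorem rinv' (a : G) (v : M) : ρ a (ρ a⁻¹ v) = v := by rw [← rmul, mul_inv_cancel, rone]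

/-- the sum over the elements of a subgroup -/
noncomputable def sm (P : Subgroup G) (v : M) : M := ∑ x : P, ρ (x : G) v

theorem sm_left (P : Subgroup G) {a : G} (ha : a ∈ P) (v : M) : ρ a (sm ρ P v) = sm ρ P v := by
  unfold sm
  rw [map_sum]
  refine Fintype.sum_equiv (Equiv.mulLeft (⟨a, ha⟩ : P)) _ _ fun x => ?_
  rw [← rmul]; rfl

theorem sm_smul (P : Subgroup G) (c : k) (v : M) : sm ρ P (c • v) = c • sm ρ P v := by
  unfold sm
  rw [Finset.smul_sum]
  exact Finset.sum_congr rfl fun x _ => map_smul _ _ _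

theorem sm_add (P : Subgroup G) (v w : M) : sm ρ P (v + w) = sm ρ P v + sm ρ P w := by
  unfold sm
  rw [← Finset.sum_add_distrib]
  exact Finset.sum_congr rfl fun x _ => map_add _ _ _

/-- the operator `T_i` -/
noncomputable def T (R : RGrp S G) (i : Fin l) (v : M) : M := sm ρ (R.X (S.p i)) (ρ (R.nn i) v)

theorem T_smul (i : Fin l) (c : k) (v : M) : T ρ R i (c • v) = c • T ρ R i v := by
  unfold T; rw [map_smul, sm_smul]

theorem T_add (i : Fin l) (v w : M) : T ρ R i (v + w) = T ρ R i v + T ρ R i w := by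
  unfold T; rw [map_add, sm_add]

/-- `χ` composed with the action of `nn i` -/
noncomputable def tw (i : Fin l) (t : Fin l → Q) : Fin l → Q := (C.mem_H.1 (nn_H' i (C.h_mem t))).choose

omit [Finite G] in
theorem tw_spec (i : Fin l) (t : Fin l → Q) : C.h (tw C i t) = (R.nn i)⁻¹ * C.h t * R.nn i :=
  (C.mem_H.1 (nn_H' i (C.h_mem t))).choose_spec

/-- conjugation by `nn i` on the torus -/
noncomputable def twHom (i : Fin l) : (Fin l → Q) →* (Fin l → Q) where
  toFun := tw C i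
  map_one' := C.h_inj (by rw [tw_spec, map_one]; group)
  map_mul' s t := C.h_inj (by rw [tw_spec, map_mul, map_mul, tw_spec, tw_spec]; group)

/-- `v` is fixed by `U` and an eigenvector of `H` -/
def BE (χ : (Fin l → Q) →* kˣ) (v : M) : Prop :=
  (∀ u ∈ R.U, ρ u v = v) ∧ ∀ t, ρ (C.h t) v = (χ t : k) • v

variable {C ρ}

omit [Finite G] in
theorem BE_smul {χ : (Fin l → Q) →* kˣ} {v : M} (h : BE C ρ χ v) (c : k) : BE C ρ χ (c • v) :=
  ⟨fun u hu => by rw [map_smul, h.1 u hu], fun t => by rw [map_smul, h.2 t, smul_comm]⟩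

/-- `T_i` preserves the eigenvectors of `B` -/
theorem T_BE {χ : (Fin l → Q) →* kˣ} {v : M} (h : BE C ρ χ v) (i : Fin l) :
    BE C ρ (χ.comp (twHom C i)) (T ρ R i v) := by
  constructor
  · intro u hu
    obtain ⟨z, hz, x, hx, rfl⟩ := mem_U' i hu
    rw [rmul]
    have h1 : ρ x (T ρ R i v) = T ρ R i v := sm_left ρ _ hx _
    rw [h1]
    unfold T sm
    rw [map_sum]
    refine Finset.sum_congr rfl fun y _ => ?_
    rw [← rmul, ← rmul, ← rmul]
    have h2 : (y : G)⁻¹ * z * y ∈ R.Ui i := by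
      have := R.XU i _ (inv_mem y.2) z hz
      rwa [inv_inv] at this
    have h3 := nn_Ui' i _ h2
    have e : z * y * R.nn i = y * R.nn i * ((R.nn i)⁻¹ * ((y : G)⁻¹ * z * y) * R.nn i) := by group
    rw [e, rmul, h.1 _ (R.Ui_le_U i h3)]
  · intro t
    have h1 : ρ (C.h t) (T ρ R i v) = sm ρ (R.X (S.p i)) (ρ (C.h t * R.nn i) v) := by
      unfold T sm
      rw [map_sum]
      let e : R.X (S.p i) ≃ R.X (S.p i) :=
        { toFun := fun x => ⟨C.h t * x * (C.h t)⁻¹, R.H_X _ (C.h_mem t) _ _ x.2⟩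
          invFun := fun x => ⟨(C.h t)⁻¹ * x * C.h t, by
            have := R.H_X _ (inv_mem (C.h_mem t)) _ _ x.2
            rwa [inv_inv] at this⟩
          left_inv := fun x => Subtype.ext (by simp [mul_assoc])
          right_inv := fun x => Subtype.ext (by simp [mul_assoc]) }
      refine Fintype.sum_equiv e _ _ fun x => ?_
      change _ = ρ (C.h t * x * (C.h t)⁻¹) _
      rw [← rmul, ← rmul, ← rmul]
      congr 2
      group
    rw [h1]
    have h2 : C.h t * R.nn i = R.nn i * C.h (tw C i t) := by rw [tw_spec]; group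
    rw [h2, rmul, h.2, map_smul, sm_smul]
    rfl

/-- the quadratic relation -/
theorem T_sq {χ : (Fin l → Q) →* kˣ} {v : M} (h : BE C ρ χ v) (i : Fin l) [Fintype Q]
    (hq : ((Nat.card (R.X (S.p i)) : ℕ) : k) = 0) :
    T ρ R i (T ρ R i v) = (∑ c : Q, (χ (Pi.mulSingle i c) : k)) • T ρ R i v := by
  classical
  -- split off `y = 1`
  have key : ∀ F : R.X (S.p i) → M, ∑ y, F y = F 1 + ∑ c : Q, F ⟨C.x i c, C.x_mem i c⟩ := by
    intro F
    rw [← Finset.add_sum_erase _ _ (Finset.mem_univ (1 : R.X (S.p i)))]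
    congr 1
    symm
    refine Finset.sum_bij (fun c _ => (⟨C.x i c, C.x_mem i c⟩ : R.X (S.p i))) ?_ ?_ ?_ ?_
    · intro c _
      rw [Finset.mem_erase]
      exact ⟨fun h => C.x_ne i c (congrArg Subtype.val h), Finset.mem_univ _⟩
    · intro c _ c' _ h
      exact C.x_inj i (congrArg Subtype.val h)
    · intro y hy
      obtain ⟨c, hc⟩ := C.x_surj i y y.2 (fun h => (Finset.mem_erase.1 hy).1 (Subtype.ext h))
      exact ⟨c, Finset.mem_univ _, Subtype.ext hc.symm⟩
    · intro c _; rfl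
  have h0 : T ρ R i (T ρ R i v) = sm ρ (R.X (S.p i)) (∑ y : R.X (S.p i), ρ (R.nn i * y * R.nn i) v) := by
    conv_lhs => rw [T]
    congr 1
    unfold T sm
    rw [map_sum]
    exact Finset.sum_congr rfl fun y _ => by rw [← rmul, ← rmul, mul_assoc]
  rw [h0, key, sm_add]
  have h1 : sm ρ (R.X (S.p i)) (ρ (R.nn i * ((1 : R.X (S.p i)) : G) * R.nn i) v) = 0 := by
    obtain ⟨c, hc⟩ := C.nn_sq i
    have e : R.nn i * ((1 : R.X (S.p i)) : G) * R.nn i = C.h (Pi.mulSingle i c) := by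
      rw [← hc]; simp
    rw [e, h.2, sm_smul]
    have h2 : sm ρ (R.X (S.p i)) v = 0 := by
      unfold sm
      rw [Finset.sum_congr rfl fun x _ => h.1 _ (R.X_le_U (S.pos_p i) x.2), Finset.sum_const, Finset.card_univ,
        ← Nat.card_eq_fintype_card, ← Nat.cast_smul_eq_nsmul k, hq, zero_smul]
    rw [h2, smul_zero]
  rw [h1, zero_add]
  have h3 : ∀ c : Q, sm ρ (R.X (S.p i)) (ρ (R.nn i * C.x i c * R.nn i) v) =
      (χ (Pi.mulSingle i c) : k) • T ρ R i v := by
    intro c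
    obtain ⟨a, ha, b, hb, e⟩ := C.x_nn i c
    have e2 : a * R.nn i * C.h (Pi.mulSingle i c) * b = a * (R.nn i * (C.h (Pi.mulSingle i c) * b)) := by group
    rw [e, e2, rmul, rmul, rmul, h.1 b (R.X_le_U (S.pos_p i) hb), h.2, map_smul, map_smul, sm_smul]
    congr 1
    unfold T sm
    refine Fintype.sum_equiv (Equiv.mulRight (⟨a, ha⟩ : R.X (S.p i))) _ _ fun x => ?_
    rw [← rmul, ← rmul, ← rmul]; rfl
  have h4 : sm ρ (R.X (S.p i)) (∑ c : Q, ρ (R.nn i * C.x i c * R.nn i) v) =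
      ∑ c : Q, sm ρ (R.X (S.p i)) (ρ (R.nn i * C.x i c * R.nn i) v) := by
    unfold sm
    rw [Finset.sum_comm]
    exact Finset.sum_congr rfl fun x _ => map_sum _ _ _
  rw [h4, Finset.sum_congr rfl fun c _ => h3 c, ← Finset.sum_smul]

variable (C ρ) in
/-- a weight vector -/
structure Wt (χ : (Fin l → Q) →* kˣ) (lam : Fin l → k) (v : M) : Prop where
  ne : v ≠ 0
  be : BE C ρ χ v
  eig : ∀ i, T ρ R i v = lam i • v

variable (ρ) in
/-- the sum over `Um u` -/
noncomputable def Ts (R : RGrp S G) (u : Equiv.Perm (Fin n)) (m : G) (v : M) : M := sm ρ (R.Um u) (ρ m v)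

theorem Ts_mul {u : Equiv.Perm (Fin n)} (hu : u ∈ S.W) {j : Fin l} (hj : S.Pos (u (S.p j))) (m : G) (v : M) :
    T ρ R j (Ts ρ R u m v) = Ts ρ R (u * S.w j) (R.nn j * m) v := by
  obtain ⟨e, he⟩ := Um_bij (R := R) hu hj
  unfold Ts T sm
  rw [← Fintype.sum_equiv e (fun p => ρ ((e p : R.Um (u * S.w j)) : G) (ρ (R.nn j * m) v)) _ fun p => rfl,
    Fintype.sum_prod_type]
  refine Finset.sum_congr rfl fun y _ => ?_
  rw [map_sum, map_sum]
  refine Finset.sum_congr rfl fun x _ => ?_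
  rw [he, ← rmul, ← rmul, ← rmul, ← rmul]
  congr 2
  change (y : G) * R.nn j * x * m = y * (R.nn j * x * (R.nn j)⁻¹) * (R.nn j * m)
  group

theorem Ts_one (v : M) (m : G) : Ts ρ R 1 m v = ρ m v := by
  unfold Ts sm
  have : Unique (R.Um (1 : Equiv.Perm (Fin n))) := by
    rw [Um_one]; infer_instance
  rw [Fintype.sum_unique]
  have h1 : ((default : R.Um (1 : Equiv.Perm (Fin n))) : G) = 1 := by
    rw [Subsingleton.elim (default : R.Um (1 : Equiv.Perm (Fin n))) 1]; rfl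
  rw [h1, rone]

/-- the vectors `Ts u m v` are eigenvectors of `B` -/
theorem Ts_BE {χ : (Fin l → Q) →* kˣ} {v : M} (h : BE C ρ χ v) {u : Equiv.Perm (Fin n)} (hu : u ∈ S.W) :
    ∀ m ∈ R.N, R.Act m u⁻¹ → ∃ χ' : (Fin l → Q) →* kˣ, BE C ρ χ' (Ts ρ R u m v) := by
  refine S.W_induction_right (Q := fun u => ∀ m ∈ R.N, R.Act m u⁻¹ → ∃ χ' : (Fin l → Q) →* kˣ,
    BE C ρ χ' (Ts ρ R u m v)) ?_ ?_ hu
  · intro m hm hma
    rw [inv_one] at hma
    obtain ⟨t, rfl⟩ := C.mem_H.1 (mem_H_of_act_one hm hma)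
    refine ⟨χ, ?_⟩
    rw [Ts_one, h.2]
    exact BE_smul h _
  · intro u hu j hj ih m hm hma
    have h1 : R.Act ((R.nn j)⁻¹ * m) u⁻¹ := by
      have := (act_nn (R := R) j).inv.mul hma
      rwa [mul_inv_rev, ← mul_assoc, S.w_inv, S.w_mul_w, one_mul] at this
    obtain ⟨χ', h2⟩ := ih _ (mul_mem (inv_mem (R.nn_mem_N j)) hm) h1
    refine ⟨χ'.comp (twHom C j), ?_⟩
    have h3 := T_BE h2 j
    rw [Ts_mul hu hj, mul_inv_cancel_left] at h3
    exact h3

/-- existence of weight vectors -/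
theorem exists_Wt_of_BE [Fintype Q] (hq : ∀ i, ((Nat.card (R.X (S.p i)) : ℕ) : k) = 0)
    {χ : (Fin l → Q) →* kˣ} {v : M} (hv : v ≠ 0) (h : BE C ρ χ v) :
    ∃ (χ' : (Fin l → Q) →* kˣ) (lam : Fin l → k) (v' : M), Wt C ρ χ' lam v' := by
  classical
  let P : Set (Equiv.Perm (Fin n)) := {u | u ∈ S.W ∧ ∃ m ∈ R.N, R.Act m u⁻¹ ∧ Ts ρ R u m v ≠ 0}
  have h1 : (1 : Equiv.Perm (Fin n)) ∈ P := ⟨one_mem _, 1, one_mem _, by rw [inv_one]; exact act_one, by
    rw [Ts_one, rone]; exact hv⟩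
  obtain ⟨u, ⟨hu, m, hm, hma, hne⟩, hmax⟩ := Set.exists_max_image P S.N (Set.toFinite _) ⟨1, h1⟩
  obtain ⟨χ', hχ⟩ := Ts_BE h hu m hm hma
  have hT : ∀ i, ∃ c : k, T ρ R i (Ts ρ R u m v) = c • Ts ρ R u m v := by
    intro i
    by_cases hp : S.Pos (u (S.p i))
    · refine ⟨0, ?_⟩
      rw [zero_smul, Ts_mul hu hp]
      by_contra hcon
      have h2 : u * S.w i ∈ P := by
        refine ⟨mul_mem hu (S.w_mem i), R.nn i * m, mul_mem (R.nn_mem_N i) hm, ?_, hcon⟩
        have := (act_nn (R := R) i).mul hma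
        rwa [mul_inv_rev, S.w_inv]
      have h3 := hmax _ h2
      rw [S.N_pos u hu i hp] at h3
      omega
    · have hu' := mul_mem hu (S.w_mem i)
      have hp' : S.Pos ((u * S.w i) (S.p i)) := by
        rw [Equiv.Perm.mul_apply, S.w_p, S.W_neg hu, S.pos_neg_iff]; exact hp
      have hma' : R.Act ((R.nn i)⁻¹ * m) (u * S.w i)⁻¹ := by
        have := (act_nn (R := R) i).inv.mul hma
        rwa [mul_inv_rev]
      obtain ⟨χ₂, h2⟩ := Ts_BE h hu' _ (mul_mem (inv_mem (R.nn_mem_N i)) hm) hma'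
      have h3 := Ts_mul (ρ := ρ) (R := R) hu' hp' ((R.nn i)⁻¹ * m) v
      rw [mul_inv_cancel_left, mul_assoc, S.w_mul_w, mul_one] at h3
      refine ⟨∑ c : Q, (χ₂ (Pi.mulSingle i c) : k), ?_⟩
      rw [← h3, T_sq h2 i (hq i)]
  choose lam hlam using hT
  exact ⟨χ', lam, _, hne, hχ, hlam⟩

/-- existence of weight vectors in nonzero modules -/
theorem exists_Wt [Fintype Q] [IsAlgClosed k] (p : ℕ) [Fact p.Prime] [CharP k p] (hU : IsPGroup p R.U)
    (hq : ∀ i, ((Nat.card (R.X (S.p i)) : ℕ) : k) = 0) [FiniteDimensional k M] [Nontrivial M] (C : CRD R Q) :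
    ∃ (χ : (Fin l → Q) →* kˣ) (lam : Fin l → k) (v : M), Wt C ρ χ lam v := by
  -- the space of fixed points of `U`
  let W : Submodule k M :=
    { carrier := {v | ∀ u ∈ R.U, ρ u v = v}
      zero_mem' := fun u _ => map_zero _
      add_mem' := fun {a b} ha hb u hu => by rw [map_add, ha u hu, hb u hu]
      smul_mem' := fun c v hv u hu => by rw [map_smul, hv u hu] }
  obtain ⟨w, hw, hfix⟩ := exists_fixed (W := M) p hU (ρ.comp R.U.subtype)
  have hnt : Nontrivial W := ⟨⟨⟨w, fun u hu => hfix ⟨u, hu⟩⟩, 0, fun h => hw (congrArg Subtype.val h)⟩⟩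
  have hst : ∀ t, ∀ v ∈ W, ρ (C.h t) v ∈ W := by
    intro t v hv u hu
    rw [← rmul]
    have h1 := H_norm_gen' S.Pos (C.h t) (C.h_mem t) u hu
    have e : u * C.h t = C.h t * ((C.h t)⁻¹ * u * C.h t) := by group
    rw [e, rmul, hv _ h1]
  let σ : (Fin l → Q) →* Module.End k W :=
    { toFun := fun t => (ρ (C.h t)).restrict (hst t)
      map_one' := LinearMap.ext fun w => Subtype.ext (by
        change ρ (C.h 1) (w : M) = w; rw [map_one, rone])
      map_mul' := fun s s' => LinearMap.ext fun w => Subtype.ext (by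
        change ρ (C.h (s * s')) (w : M) = ρ (C.h s) (ρ (C.h s') w); rw [map_mul, rmul]) }
  obtain ⟨w, hw, heig⟩ := exists_eigen _ W rfl σ
  choose c hc using heig
  have hc' : ∀ t, ρ (C.h t) (w : M) = c t • (w : M) := fun t => congrArg Subtype.val (hc t)
  have hw' : (w : M) ≠ 0 := fun h => hw (Subtype.ext h)
  have hc1 : c 1 = 1 := by
    have := hc' 1
    rw [map_one, rone] at this
    have h2 : (1 - c 1) • (w : M) = 0 := by rw [sub_smul, one_smul, ← this, sub_self]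
    rcases smul_eq_zero.1 h2 with h | h
    · exact (sub_eq_zero.1 h).symm
    · exact absurd h hw'
  have hcm : ∀ s t, c (s * t) = c s * c t := by
    intro s t
    have h1 := hc' (s * t)
    rw [map_mul, rmul, hc', map_smul, hc', smul_smul, mul_comm (c t)] at h1
    have h2 : (c (s * t) - c s * c t) • (w : M) = 0 := by rw [sub_smul, ← h1, sub_self]
    rcases smul_eq_zero.1 h2 with h | h
    · exact sub_eq_zero.1 h
    · exact absurd h hw'
  let χ0 : (Fin l → Q) →* k := { toFun := c, map_one' := hc1, map_mul' := hcm }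
  let χ : (Fin l → Q) →* kˣ := χ0.toHomUnits
  have hBE : BE C ρ χ (w : M) := ⟨w.2, fun t => by rw [hc' t]; rfl⟩
  exact exists_Wt_of_BE hq hw' hBE

end Cfsg.Agent.H53.CR
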