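import Cfsg.Agent.H53.CRInst
import Cfsg.Agent.H53.CRCount
import Cfsg.Agent.ChevGrp.Types

set_option autoImplicit false
set_option linter.unusedSectionVars false
set_option maxRecDepth 100000

/-!
# Curtis-Richen, part 10: the seven types (helper53)
-/

namespace Cfsg.Agent.H53.CR

open Cfsg.Agent.ChevWeyl Cfsg.Lie Cfsg.Agent.Chev Cfsg.Agent.ChevGrp

section gen

variable {l n : ℕ} {S : WSys l n} {G : Type*} [Group G] {R : RGrp S G} {Q : Type*} [CommGroup Q]

theorem card_X [Finite Q] (C : CRD R Q) (i : Fin l) : Nat.card (R.X (S.p i)) = Nat.card Q + 1 := by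
  have e : Option Q ≃ R.X (S.p i) := Equiv.ofBijective
    (fun c => c.elim 1 (fun c => ⟨C.x i c, C.x_mem i c⟩)) ⟨by
      rintro (_ | c) (_ | c') h
      · rfl
      · exact absurd (congrArg Subtype.val h).symm (C.x_ne i c')
      · exact absurd (congrArg Subtype.val h) (C.x_ne i c)
      · exact congrArg some (C.x_inj i (congrArg Subtype.val h)), by
      rintro ⟨y, hy⟩
      by_cases h1 : y = 1
      · exact ⟨none, Subtype.ext h1.symm⟩
      · obtain ⟨c, hc⟩ := C.x_surj i y hy h1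
        exact ⟨some c, Subtype.ext hc.symm⟩⟩
  rw [← Nat.card_congr e, Finite.card_option]

/-- the order of `U` -/
theorem card_U [Finite G] [Finite Q] (C : CRD R Q) : ∃ N, Nat.card R.U = (Nat.card Q + 1) ^ N := by
  obtain ⟨u, hu, h⟩ := S.exists_longest'
  have h1 : R.Um u = R.U := by
    unfold RGrp.Um RGrp.U
    congr 1
    funext r
    exact propext ⟨fun h => h.1, fun hr => ⟨hr, h r hr⟩⟩
  refine ⟨S.N u, ?_⟩
  rw [← h1]
  exact RGrp.card_Um (card_X C) hu

end gen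

theorem count {D : ChevalleyDatum} (E : DData D) (H : Good D) {F : Type*} [Field F] [Fintype F] (p : ℕ)
    [hp : Fact p.Prime] [CharP F p]
    (B : Fin D.rank → Fin D.rank → ℤ) (d : ℕ)
    (hB : ∀ i k : Fin D.rank, ∑ j : Fin D.rank, D.cartan i (D.simple j) * B j k = if i = k then (d : ℤ) else 0)
    (hd : ∀ c : Fˣ, c ^ d = 1 → c = 1) :
    Nat.card {c : ConjClasses ↥(D.group F) // ∃ g : ↥(D.group F), ConjClasses.mk g = c ∧ (orderOf g).Coprime p} =
      (Fintype.card F) ^ D.rank := by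
  classical
  have C := crd E H F B d hB hd
  have hQ : Nat.card Fˣ + 1 = Fintype.card F := by
    rw [Nat.card_eq_fintype_card, Fintype.card_units]
    exact Nat.sub_add_cancel Fintype.card_pos
  obtain ⟨m, -, hm⟩ := FiniteField.card F p
  obtain ⟨N, hN⟩ := card_U C
  have hU : IsPGroup p (chevG E H F).U := by
    refine IsPGroup.of_card (n := m * N) ?_
    rw [hN, hQ, hm, pow_mul]
  have := card_regular C p hU (by rw [hQ, hm]; exact dvd_pow_self p m.pos.ne')
  rw [this, hQ]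

theorem hd_of_coprime {F : Type*} [Field F] [Fintype F] (d : ℕ) (h : (Fintype.card F - 1).Coprime d) :
    ∀ c : Fˣ, c ^ d = 1 → c = 1 := by
  classical
  intro c hc
  have h1 : orderOf c ∣ Fintype.card F - 1 := by
    rw [← Fintype.card_units]; exact orderOf_dvd_card
  have h2 : orderOf c ∣ d := orderOf_dvd_of_pow_eq_one hc
  exact orderOf_eq_one_iff.1 (Nat.eq_one_of_dvd_coprimes h h1 h2)

def bG2 : Fin 2 → Fin 2 → ℤ := ![![2, 3], ![1, 2]]
def bB2 : Fin 2 → Fin 2 → ℤ := ![![2, 2], ![1, 2]]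
def bD4 : Fin 4 → Fin 4 → ℤ := ![![2, 2, 1, 1], ![2, 4, 2, 2], ![1, 2, 2, 1], ![1, 2, 1, 2]]
def bF4 : Fin 4 → Fin 4 → ℤ := ![![2, 3, 4, 2], ![3, 6, 8, 4], ![2, 4, 6, 3], ![1, 2, 3, 2]]
def bE6 : Fin 6 → Fin 6 → ℤ := ![![4, 3, 5, 6, 4, 2], ![3, 6, 6, 9, 6, 3], ![5, 6, 10, 12, 8, 4], ![6, 9, 12, 18, 12, 6],
  ![4, 6, 8, 12, 10, 5], ![2, 3, 4, 6, 5, 4]]
def bE7 : Fin 7 → Fin 7 → ℤ := ![![4, 4, 6, 8, 6, 4, 2], ![4, 7, 8, 12, 9, 6, 3], ![6, 8, 12, 16, 12, 8, 4],
  ![8, 12, 16, 24, 18, 12, 6], ![6, 9, 12, 18, 15, 10, 5], ![4, 6, 8, 12, 10, 8, 4], ![2, 3, 4, 6, 5, 4, 3]]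
def bE8 : Fin 8 → Fin 8 → ℤ := ![![4, 5, 7, 10, 8, 6, 4, 2], ![5, 8, 10, 15, 12, 9, 6, 3], ![7, 10, 14, 20, 16, 12, 8, 4],
  ![10, 15, 20, 30, 24, 18, 12, 6], ![8, 12, 16, 24, 20, 15, 10, 5], ![6, 9, 12, 18, 15, 12, 8, 4],
  ![4, 6, 8, 12, 10, 8, 6, 3], ![2, 3, 4, 6, 5, 4, 3, 2]]

theorem bG2_eq : ∀ i k : Fin 2, ∑ j : Fin 2, cmG2 i j * bG2 j k = if i = k then ((1 : ℕ) : ℤ) else 0 := by decide +kernel
theorem bB2_eq : ∀ i k : Fin 2, ∑ j : Fin 2, cmB2 i j * bB2 j k = if i = k then ((2 : ℕ) : ℤ) else 0 := by decide +kernel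
theorem bD4_eq : ∀ i k : Fin 4, ∑ j : Fin 4, cmD4 i j * bD4 j k = if i = k then ((2 : ℕ) : ℤ) else 0 := by decide +kernel
theorem bF4_eq : ∀ i k : Fin 4, ∑ j : Fin 4, cmF4 i j * bF4 j k = if i = k then ((1 : ℕ) : ℤ) else 0 := by decide +kernel
theorem bE6_eq : ∀ i k : Fin 6, ∑ j : Fin 6, cmE6 i j * bE6 j k = if i = k then ((3 : ℕ) : ℤ) else 0 := by decide +kernel
theorem bE7_eq : ∀ i k : Fin 7, ∑ j : Fin 7, cmE7 i j * bE7 j k = if i = k then ((2 : ℕ) : ℤ) else 0 := by decide +kernel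
theorem bE8_eq : ∀ i k : Fin 8, ∑ j : Fin 8, cmE8 i j * bE8 j k = if i = k then ((1 : ℕ) : ℤ) else 0 := by decide +kernel

section types

variable {F : Type*} [Field F] [Fintype F] (p : ℕ) [hp : Fact p.Prime] [CharP F p]

theorem count_G2 : Nat.card {c : ConjClasses ↥(chevG2.group F) //
    ∃ g : ↥(chevG2.group F), ConjClasses.mk g = c ∧ (orderOf g).Coprime p} = (Fintype.card F) ^ 2 :=
  count DData.dG2 (good_of_mem (by simp [data])) p bG2 1
    (fun i k => (Finset.sum_congr rfl fun j _ => by rw [show chevG2.cartan i (chevG2.simple j) = cmG2 i j from cartG2 i j]).trans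
      (bG2_eq i k)) (hd_of_coprime 1 (Nat.coprime_one_right _))

theorem count_F4 : Nat.card {c : ConjClasses ↥(chevF4.group F) //
    ∃ g : ↥(chevF4.group F), ConjClasses.mk g = c ∧ (orderOf g).Coprime p} = (Fintype.card F) ^ 4 :=
  count DData.dF4 (good_of_mem (by simp [data])) p bF4 1
    (fun i k => (Finset.sum_congr rfl fun j _ => by rw [show chevF4.cartan i (chevF4.simple j) = cmF4 i j from cartF4 i j]).trans
      (bF4_eq i k)) (hd_of_coprime 1 (Nat.coprime_one_right _))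

theorem count_E8 : Nat.card {c : ConjClasses ↥(chevE8.group F) //
    ∃ g : ↥(chevE8.group F), ConjClasses.mk g = c ∧ (orderOf g).Coprime p} = (Fintype.card F) ^ 8 :=
  count DData.dE8 (good_of_mem (by simp [data])) p bE8 1
    (fun i k => (Finset.sum_congr rfl fun j _ => by rw [show chevE8.cartan i (chevE8.simple j) = cmE8 i j from cartE8 i j]).trans
      (bE8_eq i k)) (hd_of_coprime 1 (Nat.coprime_one_right _))

theorem count_B2 (h : (Fintype.card F - 1).Coprime 2) : Nat.card {c : ConjClasses ↥(chevB2.group F) //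
    ∃ g : ↥(chevB2.group F), ConjClasses.mk g = c ∧ (orderOf g).Coprime p} = (Fintype.card F) ^ 2 :=
  count DData.dB2 (good_of_mem (by simp [data])) p bB2 2
    (fun i k => (Finset.sum_congr rfl fun j _ => by rw [show chevB2.cartan i (chevB2.simple j) = cmB2 i j from cartB2 i j]).trans
      (bB2_eq i k)) (hd_of_coprime 2 h)

theorem count_D4 (h : (Fintype.card F - 1).Coprime 2) : Nat.card {c : ConjClasses ↥(chevD4.group F) //
    ∃ g : ↥(chevD4.group F), ConjClasses.mk g = c ∧ (orderOf g).Coprime p} = (Fintype.card F) ^ 4 :=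
  count DData.dD4 (good_of_mem (by simp [data])) p bD4 2
    (fun i k => (Finset.sum_congr rfl fun j _ => by rw [show chevD4.cartan i (chevD4.simple j) = cmD4 i j from cartD4 i j]).trans
      (bD4_eq i k)) (hd_of_coprime 2 h)

theorem count_E7 (h : (Fintype.card F - 1).Coprime 2) : Nat.card {c : ConjClasses ↥(chevE7.group F) //
    ∃ g : ↥(chevE7.group F), ConjClasses.mk g = c ∧ (orderOf g).Coprime p} = (Fintype.card F) ^ 7 :=
  count DData.dE7 (good_of_mem (by simp [data])) p bE7 2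
    (fun i k => (Finset.sum_congr rfl fun j _ => by rw [show chevE7.cartan i (chevE7.simple j) = cmE7 i j from cartE7 i j]).trans
      (bE7_eq i k)) (hd_of_coprime 2 h)

theorem count_E6 (h : (Fintype.card F - 1).Coprime 3) : Nat.card {c : ConjClasses ↥(chevE6.group F) //
    ∃ g : ↥(chevE6.group F), ConjClasses.mk g = c ∧ (orderOf g).Coprime p} = (Fintype.card F) ^ 6 :=
  count DData.dE6 (good_of_mem (by simp [data])) p bE6 3
    (fun i k => (Finset.sum_congr rfl fun j _ => by rw [show chevE6.cartan i (chevE6.simple j) = cmE6 i j from cartE6 i j]).trans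
      (bE6_eq i k)) (hd_of_coprime 3 h)

end types

end Cfsg.Agent.H53.CR
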